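import Mathlib

set_option autoImplicit false

/-!
# Wielandt's theorem on primitive groups of degree `2p` (S0720): shared definitions (helper74)

`G ≤ Perm Ω` primitive, `|Ω| = 2p`, `x ∈ G` of order `p` without fixed points, `p² ∤ |G|`,
`G` not 2-transitive.  `a₀` is a base point, `H = stabilizer G a₀`.
-/

namespace Cfsg.Agent.H74.W2P

open Equiv MulAction

variable {Ω : Type*} [Fintype Ω] [DecidableEq Ω]

/-- the hypothesis package of the core theorem -/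
structure Hyp (G : Subgroup (Perm Ω)) (p : ℕ) (x : Perm Ω) : Prop where
  hp : p.Prime
  hp2 : p ≠ 2
  hcard : Fintype.card Ω = 2 * p
  hprim : IsPreprimitive G Ω
  hxG : x ∈ G
  hxord : orderOf x = p
  hxfix : ∀ ω : Ω, x ω ≠ ω
  hsyl : ¬ p ^ 2 ∣ Nat.card G
  hnot2 : ¬ IsMultiplyPretransitive G Ω 2

/-- the rank 3 conclusion of Wielandt's theorem -/
def Concl (G : Subgroup (Perm Ω)) (p : ℕ) (a₀ : Ω) : Prop :=
  Nat.card (orbitRel.Quotient (stabilizer G a₀) Ω) = 3 ∧ ∃ a : ℕ, 0 < a ∧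
    p = 2 * a ^ 2 + 2 * a + 1 ∧ ∀ b : Ω, b ≠ a₀ →
      Nat.card (orbit (stabilizer G a₀) b) = a * (2 * a + 1) ∨
        Nat.card (orbit (stabilizer G a₀) b) = (a + 1) * (2 * a + 1)

/-- the primitive `p`-th root of unity `exp(2πi/p)` -/
noncomputable def zeta (p : ℕ) : ℂ := Complex.exp (2 * Real.pi * Complex.I / p)

/-- functions `f` on `Ω` with `f (x ω) = ζ ^ h * f ω` -/
def Vh (x : Perm Ω) (p : ℕ) (h : ZMod p) : Submodule ℂ (Ω → ℂ) where
  carrier := {f | ∀ ω, f (x ω) = zeta p ^ h.val * f ω}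
  add_mem' := by
    intro f g hf hg ω
    simp only [Set.mem_setOf_eq] at hf hg
    simp only [Pi.add_apply, hf ω, hg ω, mul_add]
  zero_mem' := by
    intro ω
    simp
  smul_mem' := by
    intro c f hf ω
    simp only [Set.mem_setOf_eq] at hf
    simp only [Pi.smul_apply, smul_eq_mul, hf ω]
    ring

/-- length of the suborbit (orbit of the stabilizer of `a₀`) of `ω` -/
noncomputable def nval (G : Subgroup (Perm Ω)) (a₀ ω : Ω) : ℕ :=
  Nat.card (orbit (stabilizer G a₀) ω)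

/-- number of points of the suborbit of `ω` lying in the `x`-cycle of `a₀` -/
noncomputable def kval (G : Subgroup (Perm Ω)) (x : Perm Ω) (a₀ ω : Ω) : ℕ :=
  Nat.card {ω' : Ω // ω' ∈ orbit (stabilizer G a₀) ω ∧ x.SameCycle a₀ ω'}

/-- a subspace of functions on `Ω` is `G`-invariant -/
def Inv (G : Subgroup (Perm Ω)) (W : Submodule ℂ (Ω → ℂ)) : Prop :=
  ∀ g ∈ G, ∀ f ∈ W, (fun ω => f (g ω)) ∈ W

/-- a nonzero `G`-invariant subspace without proper nonzero `G`-invariant subspaces -/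
def Irr (G : Subgroup (Perm Ω)) (W : Submodule ℂ (Ω → ℂ)) : Prop :=
  W ≠ ⊥ ∧ ∀ W' : Submodule ℂ (Ω → ℂ), W' ≤ W → Inv G W' → W' = ⊥ ∨ W' = W

/-- `G`-invariant integer matrices (elements of the centralizer ring) -/
def Cent (G : Subgroup (Perm Ω)) (A : Matrix Ω Ω ℤ) : Prop :=
  ∀ g ∈ G, ∀ i j, A (g i) (g j) = A i j

/-- the data of an irreducible constituent `W` of the permutation module on which `x` has the
simple eigenvalues `ζ ^ h`, `h ∈ Λ` (all nontrivial), lying in the principal `p`-block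
(`cong`), with an `H`-invariant vector with coordinates in `ℚ(ζ)` (`rat`). -/
structure WData (G : Subgroup (Perm Ω)) (p : ℕ) (x : Perm Ω) (a₀ : Ω)
    (W : Submodule ℂ (Ω → ℂ)) (Λ : Finset (ZMod p)) : Prop where
  inv : Inv G W
  irr : Irr G W
  zero_not_mem : (0 : ZMod p) ∉ Λ
  eig : ∀ h ∈ Λ, Module.finrank ℂ ↥(W ⊓ Vh x p h) = 1
  sup : W = ⨆ h ∈ Λ, W ⊓ Vh x p h
  cong : ∀ A : Matrix Ω Ω ℤ, Cent G A → ∃ u : ℂ, IsIntegral ℤ u ∧ ∀ f ∈ W,
    (A.map (Int.cast : ℤ → ℂ)).mulVec f = ((∑ j, (A a₀ j : ℂ)) + (1 - zeta p) * u) • f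
  rat : ∃ F ∈ W, F ≠ 0 ∧ (∀ g ∈ G, g a₀ = a₀ → ∀ ω, F (g ω) = F ω) ∧
    ∀ ω, F ω ∈ Algebra.adjoin ℚ {zeta p}

/-- `σ`: `1` on the `x`-cycle of `a₀`, `-1` elsewhere -/
noncomputable def sig (x : Perm Ω) (a₀ : Ω) (ω : Ω) : ℂ :=
  if x.SameCycle a₀ ω then 1 else -1

/-- the span of the `G`-translates `σ ∘ g` of `σ` -/
def U0 (G : Subgroup (Perm Ω)) (x : Perm Ω) (a₀ : Ω) : Submodule ℂ (Ω → ℂ) :=
  Submodule.span ℂ {f | ∃ g ∈ G, f = fun ω => sig x a₀ (g ω)}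

/-- the functions orthogonal (for the bilinear form `∑ f * f'`) to all `G`-translates of `σ` -/
def Uperp (G : Subgroup (Perm Ω)) (x : Perm Ω) (a₀ : Ω) : Submodule ℂ (Ω → ℂ) where
  carrier := {f | ∀ g ∈ G, ∑ ω, f ω * sig x a₀ (g ω) = 0}
  add_mem' := by
    intro f f' hf hf' g hg
    simp only [Set.mem_setOf_eq] at hf hf'
    simp only [Pi.add_apply, add_mul, Finset.sum_add_distrib, hf g hg, hf' g hg, add_zero]
  zero_mem' := by
    intro g _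
    simp
  smul_mem' := by
    intro c f hf g hg
    simp only [Set.mem_setOf_eq] at hf
    simp only [Pi.smul_apply, smul_eq_mul, mul_assoc, ← Finset.mul_sum, hf g hg, mul_zero]

/-- `G`-invariant complex matrices (the centralizer algebra) -/
def CentC (G : Subgroup (Perm Ω)) (A : Matrix Ω Ω ℂ) : Prop :=
  ∀ g ∈ G, ∀ i j, A (g i) (g j) = A i j

/-- the centralizer algebra as a subspace of the matrices -/
def centSub (G : Subgroup (Perm Ω)) : Submodule ℂ (Matrix Ω Ω ℂ) where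
  carrier := {A | CentC G A}
  add_mem' := by
    intro A B hA hB g hg i j
    simp only [Matrix.add_apply, hA g hg i j, hB g hg i j]
  zero_mem' := by
    intro g _ i j
    rfl
  smul_mem' := by
    intro c A hA g hg i j
    simp only [Matrix.smul_apply, hA g hg i j]

/-- the scalar by which a matrix `A` of the centralizer algebra acts on the line
`Uperp ⊓ Vh h` (`h ≠ 0`): the trace of `A` on `Vh h` minus its eigenvalue on `σ`.
Here `b₀` is a point outside the `x`-cycle of `a₀`. -/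
noncomputable def wch (x : Perm Ω) (a₀ b₀ : Ω) (p : ℕ) (A : Matrix Ω Ω ℂ) (h : ZMod p) : ℂ :=
  (∑ z ∈ Finset.range p, (A a₀ ((x ^ z) a₀) + A b₀ ((x ^ z) b₀)) * zeta p ^ (h.val * z)) -
    ∑ j, A a₀ j * sig x a₀ j

/-- the output of the first half of the linear algebra: `Vh h = (U0 ⊓ Vh h) ⊕ (Uperp ⊓ Vh h)`
with both summands lines (`h ≠ 0`), on which the centralizer algebra acts by the given
scalars. -/
structure Core (G : Subgroup (Perm Ω)) (p : ℕ) (x : Perm Ω) (a₀ b₀ : Ω) : Prop where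
  dimU : ∀ h : ZMod p, h ≠ 0 → Module.finrank ℂ ↥(U0 G x a₀ ⊓ Vh x p h) = 1
  dimW : ∀ h : ZMod p, h ≠ 0 → Module.finrank ℂ ↥(Uperp G x a₀ ⊓ Vh x p h) = 1
  scalU : ∀ A : Matrix Ω Ω ℂ, CentC G A → ∀ f ∈ U0 G x a₀,
    A.mulVec f = (∑ j, A a₀ j * sig x a₀ j) • f
  scalW : ∀ A : Matrix Ω Ω ℂ, CentC G A → ∀ h : ZMod p, h ≠ 0 →
    ∀ f ∈ Uperp G x a₀ ⊓ Vh x p h, A.mulVec f = wch x a₀ b₀ p A h • f

/-- the set `E` of nonzero `k` with `ω_k = ω_1` on all integer centralizer matrices -/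
def Eset (G : Subgroup (Perm Ω)) (x : Perm Ω) (a₀ b₀ : Ω) (p : ℕ) : Set (ZMod p) :=
  {k | k ≠ 0 ∧ ∀ A : Matrix Ω Ω ℤ, Cent G A →
    wch x a₀ b₀ p (A.map (Int.cast : ℤ → ℂ)) k = wch x a₀ b₀ p (A.map (Int.cast : ℤ → ℂ)) 1}

/-! ### Named hypotheses (so that the pieces of the proof are independent of each other) -/

/-- the centralizer algebra acts on `U0` by the scalar `a(A) = ∑ j, A a₀ j * σ j` -/
def ScalU (G : Subgroup (Perm Ω)) (x : Perm Ω) (a₀ : Ω) : Prop :=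
  ∀ A : Matrix Ω Ω ℂ, CentC G A → ∀ f ∈ U0 G x a₀,
    A.mulVec f = (∑ j, A a₀ j * sig x a₀ j) • f

/-- `U0 ⊓ Vh h` is a line for every `h ≠ 0` -/
def DimU (G : Subgroup (Perm Ω)) (p : ℕ) (x : Perm Ω) (a₀ : Ω) : Prop :=
  ∀ h : ZMod p, h ≠ 0 → Module.finrank ℂ ↥(U0 G x a₀ ⊓ Vh x p h) = 1

/-- `Uperp ⊓ Vh h` is a line for every `h ≠ 0` -/
def DimW (G : Subgroup (Perm Ω)) (p : ℕ) (x : Perm Ω) (a₀ : Ω) : Prop :=
  ∀ h : ZMod p, h ≠ 0 → Module.finrank ℂ ↥(Uperp G x a₀ ⊓ Vh x p h) = 1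

/-- Galois transfer for the scalars `wch` of integer matrices -/
def Transfer (x : Perm Ω) (a₀ b₀ : Ω) (p : ℕ) : Prop :=
  ∀ (A : Matrix Ω Ω ℤ) (h h' k : ZMod p), k ≠ 0 →
    wch x a₀ b₀ p (A.map (Int.cast : ℤ → ℂ)) h = wch x a₀ b₀ p (A.map (Int.cast : ℤ → ℂ)) h' →
    wch x a₀ b₀ p (A.map (Int.cast : ℤ → ℂ)) (k * h) =
      wch x a₀ b₀ p (A.map (Int.cast : ℤ → ℂ)) (k * h')

/-- the scalars `wch` of integer centralizer matrices are `≡ n(A)` modulo `1 - ζ` -/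
def CongW (G : Subgroup (Perm Ω)) (p : ℕ) (x : Perm Ω) (a₀ b₀ : Ω) : Prop :=
  ∀ A : Matrix Ω Ω ℤ, Cent G A → ∀ h : ZMod p, ∃ u : ℂ, IsIntegral ℤ u ∧
    wch x a₀ b₀ p (A.map (Int.cast : ℤ → ℂ)) h = (∑ j, (A a₀ j : ℂ)) + (1 - zeta p) * u

/-- the centralizer algebra is spanned by its integer matrices -/
def SpanInt (G : Subgroup (Perm Ω)) : Prop :=
  centSub G = Submodule.span ℂ
    {A | ∃ B : Matrix Ω Ω ℤ, Cent G B ∧ A = B.map (Int.cast : ℤ → ℂ)}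

/-- the subspace `W = ⨁_{h ∈ Λ} Uperp ⊓ Vh h` -/
def Wsp (G : Subgroup (Perm Ω)) (p : ℕ) (x : Perm Ω) (a₀ : Ω) (Λ : Finset (ZMod p)) :
    Submodule ℂ (Ω → ℂ) :=
  ⨆ h ∈ Λ, Uperp G x a₀ ⊓ Vh x p h

/-- the set of nonzero squares `y` with `s - y` a nonzero square -/
noncomputable def conicSet (p : ℕ) [Fact p.Prime] (s : ZMod p) : Finset (ZMod p) :=
  open Classical in
  Finset.univ.filter (fun y : ZMod p => y ≠ 0 ∧ IsSquare y ∧ s - y ≠ 0 ∧ IsSquare (s - y))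

/-- number of `z` with `c z = q` -/
noncomputable def cnt {p : ℕ} [Fact p.Prime] {Q : Type*} (c : ZMod p → Q) (q : Q) : ℕ :=
  open Classical in (Finset.univ.filter (fun z : ZMod p => c z = q)).card

/-- the abstract arithmetic statement: no "class maps" `c1, c2 : ZMod p → Q` with a value
function given by the polynomials `B y + C y²`, `A' + B' y + C' y²` in `y = z ^ e₀`. -/
def ARA (p : ℕ) [Fact p.Prime] (Q : Type*) [Fintype Q] (e₀ : ℕ) : Prop :=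
  open Classical in
  ∀ (c1 c2 : ZMod p → Q) (q₀ : Q), (∀ z, c1 z = q₀ ↔ z = 0) → (∀ z, c2 z ≠ q₀) →
    (∀ q, ∃ z, c1 z = q ∨ c2 z = q) →
    ∀ a : ZMod p, orderOf a = e₀ → (∀ z, c1 (a * z) = c1 z) → (∀ z, c2 (a * z) = c2 z) →
    (∀ q, q ≠ q₀ → 2 ≤ cnt c1 q + cnt c2 q) →
    (∑ q ∈ Finset.univ.erase q₀,
      ((cnt c1 q : ℚ) - cnt c2 q) ^ 2 / ((cnt c1 q : ℚ) + cnt c2 q) = 1) →
    ∀ val : Q → ZMod p, (∃ q, val q ≠ 0) → ∀ B C A' B' C' : ZMod p,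
      (∀ z, val (c1 z) = B * z ^ e₀ + C * z ^ (2 * e₀)) →
      (∀ z, val (c2 z) = A' + B' * z ^ e₀ + C' * z ^ (2 * e₀)) → False

end Cfsg.Agent.H74.W2P
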