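import Cfsg.Agent.H52.SpDefs

/-!
# S2948 (maximal straddling 2-subgroups `T ∈ 𝒯*(M)`): statements of the pieces

Route.  (i) `N_G(J(T)) ≤ M` (NJ).  (ii) for a 2-subgroup `T₀ ⊇ J(T)` of a 2-local `L ≰ M`:
`J(T₀) = J(T)` and `T₀` is straddling (EQ).  (iii) `L` is in the family of `T₀` (OV).
(iv) if `T ≤ L` then `T` is Sylow in `L` (SYL).  (v) EXISTENCE of a `J(T)`-component in every
`L` of the family of `T`: inside `X = ↥L` (`Q = O₂(X)`, `V = Ω₁Z(Q)`, `C = C_X(V)`, `M = J(X)`,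
`J = J(T)`), Glauberman's theorem gives `D ⊇ C` of index 3 normalized but not centralized
modulo `C` by `M` (D); a conjugate is not centralized by `J` (K1A); `U := [D, J] Q` has
`|U : Q| = 3` (K1B); `K := ⟨odd elements of U⟩` (K2); transport to `G` (TRA, TRC, TRN); Sylow
clause (JS); `W_K ≠ 1` (WNE) and `|W_K| ∈ {1, 4}` (W4).
-/

set_option autoImplicit false
open Cfsg

namespace Cfsg.Agent.H74.Ts

universe u

/-- NJ: `N_G(J(T)) ≤ M` for `T` maximal straddling. -/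
def StNJ : Prop := ∀ {G : Type u} [Group G] [Finite G] (S : Sylow 2 G) (M : Subgroup G),
  Subgroup.normalizer (thompsonSubgroupOf 2 (S : Subgroup G) : Set G) ≤ M →
  ∀ T : Subgroup G, T ∈ maxStraddlingTwoSubgroups M →
  Subgroup.normalizer (thompsonSubgroupOf 2 T : Set G) ≤ M

/-- EQ: a 2-subgroup `T₀ ⊇ J(T)` of a 2-local `L ≰ M` has `J(T₀) = J(T)` and is straddling. -/
def StEQ : Prop := ∀ {G : Type u} [Group G] [Finite G] (M T : Subgroup G),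
  T ∈ maxStraddlingTwoSubgroups M →
  Subgroup.normalizer (thompsonSubgroupOf 2 T : Set G) ≤ M →
  ∀ L : Subgroup G, IsTwoLocal L → ¬ L ≤ M →
  ∀ T₀ : Subgroup G, IsPGroup 2 ↥T₀ → T₀ ≤ L → thompsonSubgroupOf 2 T ≤ T₀ →
  thompsonSubgroupOf 2 T = thompsonSubgroupOf 2 T₀ ∧ T₀ ∈ straddlingTwoSubgroups M

/-- OV: a 2-local `L ≰ M` is in the family of a Sylow 2-subgroup `T₀` with `N_G(J(T₀)) ≤ M`. -/
def StOV : Prop := ∀ {G : Type u} [Group G] [Finite G], IsCharacteristicTwoType G →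
  ∀ (M T₀ L : Subgroup G), IsTwoLocal L → ¬ L ≤ M → IsSylowTwoIn T₀ L →
  Subgroup.normalizer (thompsonSubgroupOf 2 T₀ : Set G) ≤ M →
  L ∈ jOvergroups T₀

/-- SYL: a maximal straddling `T` inside a 2-local `L ≰ M` is Sylow in `L`. -/
def StSyl : Prop := ∀ {G : Type u} [Group G] [Finite G] (M T : Subgroup G),
  T ∈ maxStraddlingTwoSubgroups M →
  Subgroup.normalizer (thompsonSubgroupOf 2 T : Set G) ≤ M →
  ∀ L : Subgroup G, IsTwoLocal L → ¬ L ≤ M → T ≤ L → IsSylowTwoIn T L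

/-- D: from Glauberman's theorem S0617: a subgroup `D ⊇ C_X(V)` of index 3 over `C_X(V)`,
normalized by `J(X)` and not centralized by `J(X)` modulo `C_X(V)`. -/
def StD : Prop := ∀ {X : Type u} [Group X] [Finite X] (V : Subgroup X) [V.Normal],
  IsElementaryAbelian 2 V → IsPSolvable 2 X →
  pCore 2 (X ⧸ Subgroup.centralizer (V : Set X)) = ⊥ →
  ¬ thompsonSubgroup 2 X ≤ Subgroup.centralizer (V : Set X) →
  ∃ D : Subgroup X, Subgroup.centralizer (V : Set X) ≤ D ∧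
    (Subgroup.centralizer (V : Set X)).relIndex D = 3 ∧
    thompsonSubgroup 2 X ≤ Subgroup.normalizer (D : Set X) ∧
    ¬ ⁅D, thompsonSubgroup 2 X⁆ ≤ Subgroup.centralizer (V : Set X)

/-- ODD: `Q` has odd index in `C`. -/
def StOdd : Prop := ∀ {X : Type u} [Group X] [Finite X] (T C Q : Subgroup X),
  IsPGroup 2 ↥T → Odd T.index → C.Normal → T ⊓ C ≤ Q → Q ≤ C → Odd (Q.relIndex C)

/-- MJ: `J(↥L)` lies in every normal subgroup of `↥L` containing `J(T)`, `T` Sylow in `L`. -/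
def StMJ : Prop := ∀ {G : Type u} [Group G] [Finite G] (T L : Subgroup G), IsSylowTwoIn T L →
  ∀ N : Subgroup ↥L, N.Normal → (thompsonSubgroupOf 2 T).subgroupOf L ≤ N →
  thompsonSubgroup 2 ↥L ≤ N

/-- K1A: some conjugate of `D` is not centralized by `J` modulo `C`. -/
def StK1A : Prop := ∀ {X : Type u} [Group X] [Finite X] (C M J D : Subgroup X),
  C.Normal → M.Normal → J ≤ M → (∀ N : Subgroup X, N.Normal → J ≤ N → M ≤ N) →
  C ≤ D → C.relIndex D = 3 → M ≤ Subgroup.normalizer (D : Set X) → ¬ ⁅D, M⁆ ≤ C →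
  ∃ D' : Subgroup X, C ≤ D' ∧ C.relIndex D' = 3 ∧ M ≤ Subgroup.normalizer (D' : Set X) ∧
    ¬ ⁅D', J⁆ ≤ C

/-- K1B: `U := [D, J] Q` has index 3 over `Q` (coprime action of `J` on `D / Q`). -/
def StK1B : Prop := ∀ {X : Type u} [Group X] [Finite X] (C Q J D : Subgroup X),
  C.Normal → Q.Normal → IsPGroup 2 ↥Q → Q ≤ C → Odd (Q.relIndex C) → ⁅C, J⁆ ≤ Q →
  IsPGroup 2 ↥J → C ≤ D → C.relIndex D = 3 → J ≤ Subgroup.normalizer (D : Set X) →
  ¬ ⁅D, J⁆ ≤ C →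
  ∃ U : Subgroup X, Q ≤ U ∧ Q.relIndex U = 3 ∧ J ≤ Subgroup.normalizer (U : Set X) ∧
    ⁅U, J⁆ ⊔ Q = U ∧ ¬ U ≤ C

/-- K2: `K := ⟨odd elements of U⟩`. -/
def StK2 : Prop := ∀ {X : Type u} [Group X] [Finite X] (Q J U : Subgroup X),
  Q.Normal → IsPGroup 2 ↥Q → Q ≤ U → Q.relIndex U = 3 → J ≤ Subgroup.normalizer (U : Set X) →
  ⁅U, J⁆ ⊔ Q = U →
  ∃ K : Subgroup X, Subgroup.closure {g : X | g ∈ K ∧ Odd (orderOf g)} = K ∧ ⁅K, J⁆ = K ∧
    (K ⊓ Q).relIndex K = 3 ∧ Q ≤ Subgroup.normalizer (K : Set X) ∧ K ⊔ Q = U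

/-- TRA: transport to `G` of "generated by odd elements" and `[K, J] = K`. -/
def StTrA : Prop := ∀ {G : Type u} [Group G] [Finite G] (T L : Subgroup G) (K' : Subgroup ↥L),
  T ≤ L →
  Subgroup.closure {g : ↥L | g ∈ K' ∧ Odd (orderOf g)} = K' →
  ⁅K', (thompsonSubgroupOf 2 T).subgroupOf L⁆ = K' →
  Subgroup.closure {g : G | g ∈ K'.map L.subtype ∧ Odd (orderOf g)} = K'.map L.subtype ∧
    ⁅K'.map L.subtype, thompsonSubgroupOf 2 T⁆ = K'.map L.subtype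

/-- TRC: transport to `G` of the 2-core of `K`. -/
def StTrC : Prop := ∀ {G : Type u} [Group G] [Finite G] (L : Subgroup G) (K' : Subgroup ↥L),
  (K' ⊓ pCore 2 ↥L).relIndex K' = 3 →
  (pCoreOf 2 (K'.map L.subtype)).relIndex (K'.map L.subtype) = 3 ∧
    pCoreOf 2 (K'.map L.subtype) ≤ pCoreOf 2 L

/-- TRN: transport to `G` of `Q ≤ N(K)` and `K ≰ C(V)`. -/
def StTrN : Prop := ∀ {G : Type u} [Group G] [Finite G] (L : Subgroup G) (K' : Subgroup ↥L),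
  pCore 2 ↥L ≤ Subgroup.normalizer (K' : Set ↥L) →
  ¬ K' ≤ Subgroup.centralizer
    (((omegaCenterOf (pCoreOf 2 L)).subgroupOf L : Subgroup ↥L) : Set ↥L) →
  pCoreOf 2 L ≤ Subgroup.normalizer ((K'.map L.subtype : Subgroup G) : Set G) ∧
    ¬ K'.map L.subtype ≤ Subgroup.centralizer (omegaCenterOf (pCoreOf 2 L) : Set G)

/-- JS: every 2-subgroup of `L` containing `J(T)`, `T` Sylow in `L`, has Thompson subgroup
`J(T)`. -/
def StJS : Prop := ∀ {G : Type u} [Group G] [Finite G] (T L : Subgroup G), IsSylowTwoIn T L →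
  ∀ S₁ : Subgroup G, IsPGroup 2 ↥S₁ → S₁ ≤ L → thompsonSubgroupOf 2 T ≤ S₁ →
  thompsonSubgroupOf 2 S₁ = thompsonSubgroupOf 2 T

/-- WNE: `W_K ≠ 1`. -/
def StWne : Prop := ∀ {G : Type u} [Group G] [Finite G] (L K : Subgroup G), K ≤ L →
  Subgroup.closure {g : G | g ∈ K ∧ Odd (orderOf g)} = K →
  pCoreOf 2 L ≤ Subgroup.normalizer (K : Set G) → pCoreOf 2 K ≤ pCoreOf 2 L →
  ¬ K ≤ Subgroup.centralizer (omegaCenterOf (pCoreOf 2 L) : Set G) →
  wOf K ≠ ⊥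

/-- W4: `|W_K| ∈ {1, 4}` and `W_K` has exponent 2 (counting with `A ∈ 𝒜(T)` inverting
`K / O₂(K)` and `B := C_A(K / O₂(K))`). -/
def StW4 : Prop := ∀ {G : Type u} [Group G] [Finite G] (T K : Subgroup G), IsPGroup 2 ↥T →
  (pCoreOf 2 K).relIndex K = 3 → pCoreOf 2 K ≤ T → ⁅K, thompsonSubgroupOf 2 T⁆ = K →
  (Nat.card ↥(wOf K) = 4 ∨ wOf K = ⊥) ∧ ∀ w ∈ wOf K, w * w = 1

/-- EX: existence of a `J(T)`-component in every member of the family of `T`. -/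
def StEx : Prop := ∀ {G : Type u} [Group G] [Finite G],
  IsCharacteristicTwoType G →
  (∀ N : Subgroup G, IsTwoLocal N → Group.IsSolvable ↥N) →
  (∀ S : Sylow 2 G, Subgroup.centralizer (omegaCenterOf (S : Subgroup G) : Set G) ≤
      Subgroup.normalizer ((S : Subgroup G) : Set G)) →
  ∀ (T : Subgroup G), IsPGroup 2 ↥T → T ≠ ⊥ → ∀ (L : Subgroup G), L ∈ jOvergroups T →
  ∃ K : Subgroup G, IsJComponent T K ∧ K ≤ L

/-- The statement S2948. -/
def StMain4 : Prop := ∀ {G : Type u} [Group G] [Finite G],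
  IsCharacteristicTwoType G →
  (∀ N : Subgroup G, IsTwoLocal N → Group.IsSolvable ↥N) →
  (∀ S : Sylow 2 G, Subgroup.centralizer (omegaCenterOf (S : Subgroup G) : Set G) ≤
      Subgroup.normalizer ((S : Subgroup G) : Set G)) →
  pCore 2 G = ⊥ → ∀ (S : Sylow 2 G) (M : Subgroup G), IsTwoLocal M →
  Subgroup.normalizer (thompsonSubgroupOf 2 (S : Subgroup G) : Set G) ≤ M →
  ∀ (T : Subgroup G), T ∈ maxStraddlingTwoSubgroups M →
  ∀ (L : Subgroup G), IsTwoLocal L → ¬ L ≤ M → ∀ (T₀ : Subgroup G), IsSylowTwoIn T₀ L →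
  thompsonSubgroupOf 2 T ≤ T₀ →
  thompsonSubgroupOf 2 T = thompsonSubgroupOf 2 T₀ ∧ T₀ ∈ straddlingTwoSubgroups M ∧
    L ∈ jOvergroups T₀ ∧
    (T ≤ L → L ∈ jOvergroups T ∧ ∃ K : Subgroup G, IsJComponent T K ∧ K ≤ L)

end Cfsg.Agent.H74.Ts
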