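import Mathlib
import Cfsg.Prelude.Def_Transfer
import Cfsg.Prelude.Def_BaumannBlocks
import Cfsg.Agent.H40.Alperin
import Cfsg.Agent.H40.Resid

/-!
# The Hall--Wielandt transfer theorem (helper74)

`inf_commutator_le_of_weaklyClosed`: if `Q` is weakly closed in the Sylow `p`-subgroup `P` of `G`
and `[u, z; p-1] = 1` for `u ∈ P`, `z ∈ Q`, then `P ∩ G' ≤ N_G(Q)'`.
Proof: transfer into `N/N'`, an element of minimal order, and the fact that for `S ⊴ S⟨z⟩` of
index `p` the transfer is the `p`-th power map under the Engel condition.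
-/

set_option autoImplicit false

namespace Cfsg.Agent.H74.HW
open Subgroup

theorem alg_sum_pow {R : Type*} [Ring R] (δ : R) (n : ℕ) :
    ∑ i ∈ Finset.range n, (1 + δ) ^ i = ∑ k ∈ Finset.range n, (n.choose (k + 1) : R) * δ ^ k := by
  induction n with
  | zero => simp
  | succ n ih =>
    rw [Finset.sum_range_succ, ih]
    have h1 : (1 + δ) ^ n = ∑ k ∈ Finset.range (n + 1), (n.choose k : R) * δ ^ k := by
      rw [add_comm, (Commute.one_right δ).add_pow]
      refine Finset.sum_congr rfl fun m _ => ?_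
      rw [one_pow, mul_one]
      exact (Nat.cast_commute _ _).symm
    rw [h1]
    have h2 : ∑ k ∈ Finset.range (n + 1), ((n + 1).choose (k + 1) : R) * δ ^ k =
        ∑ k ∈ Finset.range (n + 1), (n.choose (k + 1) : R) * δ ^ k +
          ∑ k ∈ Finset.range (n + 1), (n.choose k : R) * δ ^ k := by
      rw [← Finset.sum_add_distrib]
      refine Finset.sum_congr rfl fun m _ => ?_
      rw [Nat.choose_succ_succ, Nat.cast_add, add_mul, add_comm]
    rw [h2, Finset.sum_range_succ (fun k => (n.choose (k + 1) : R) * δ ^ k) n]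
    simp [Nat.choose_succ_self]

theorem alg_key {M : Type*} [AddCommGroup M] {p : ℕ} (hp : p.Prime) (δ : Module.End ℤ M) (ψ : M)
    (h1 : (δ ^ (p - 1)) ψ = 0) (h2 : ((1 + δ) ^ p) ψ = ψ) :
    (∑ i ∈ Finset.range p, (1 + δ) ^ i) ψ = p • ψ := by
  have hA : ∀ k, p - 1 ≤ k → (δ ^ k) ψ = 0 := by
    intro k hk
    obtain ⟨j, rfl⟩ := Nat.exists_eq_add_of_le hk
    rw [add_comm, pow_add, Module.End.mul_apply, h1, map_zero]
  have hexp : (1 + δ) ^ p = ∑ m ∈ Finset.range (p + 1), (p.choose m : Module.End ℤ M) * δ ^ m := by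
    rw [add_comm, (Commute.one_right δ).add_pow]
    refine Finset.sum_congr rfl fun m _ => ?_
    rw [one_pow, mul_one]
    exact (Nat.cast_commute _ _).symm
  have hdvd : ∀ m, m ≠ 0 → m < p → ∃ c, p.choose m = c * p := by
    intro m hm0 hmp
    obtain ⟨c, hc⟩ := hp.dvd_choose_self hm0 hmp
    exact ⟨c, by rw [hc, mul_comm]⟩
  have hB : ∀ n k, 1 ≤ k → p - 1 ≤ k + n → p • (δ ^ k) ψ = 0 := by
    intro n
    induction n with
    | zero =>
      intro k _ hk
      rw [hA k (by simpa using hk), smul_zero]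
    | succ n ih =>
      intro k hk1 hk
      have h3 : (δ ^ (k - 1)) (((1 + δ) ^ p) ψ) =
          ∑ m ∈ Finset.range (p + 1), p.choose m • (δ ^ (k - 1 + m)) ψ := by
        rw [hexp, LinearMap.sum_apply, map_sum]
        refine Finset.sum_congr rfl fun m _ => ?_
        rw [Module.End.mul_apply, Module.End.natCast_apply, map_nsmul, pow_add, Module.End.mul_apply]
      have h4 : ∑ m ∈ Finset.range (p + 1), p.choose m • (δ ^ (k - 1 + m)) ψ =
          p.choose 0 • (δ ^ (k - 1 + 0)) ψ + p.choose 1 • (δ ^ (k - 1 + 1)) ψ := by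
        apply Finset.sum_eq_add 0 1 (by norm_num)
        · intro m hm hne
          have hm2 : 2 ≤ m := by
            rcases hne with ⟨h0, h1'⟩
            omega
          have hmp : m ≤ p := by
            have := Finset.mem_range.mp hm
            omega
          rcases Nat.lt_or_ge m p with hlt | hge
          · obtain ⟨c, hc⟩ := hdvd m (by omega) hlt
            rw [hc, mul_smul, ih (k - 1 + m) (by omega) (by omega), smul_zero]
          · rw [hA (k - 1 + m) (by omega), smul_zero]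
        · intro h; exact absurd (Finset.mem_range.mpr (Nat.succ_pos p)) h
        · intro h; exact absurd (Finset.mem_range.mpr (by have := hp.two_le; omega)) h
      rw [h2, h4] at h3
      have h5 : k - 1 + 1 = k := by omega
      rw [Nat.choose_zero_right, Nat.choose_one_right, one_smul, add_zero, h5] at h3
      exact left_eq_add.mp h3
  rw [alg_sum_pow, LinearMap.sum_apply]
  rw [Finset.sum_eq_single 0]
  · rw [Nat.choose_one_right, pow_zero, mul_one, Module.End.natCast_apply]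
  · intro k hk hk0
    have hkp := Finset.mem_range.mp hk
    rw [Module.End.mul_apply, Module.End.natCast_apply]
    rcases Nat.lt_or_ge (k + 1) p with hlt | hge
    · obtain ⟨c, hc⟩ := hdvd (k + 1) (by omega) hlt
      rw [hc, mul_smul, hB p k (by omega) (by omega), smul_zero]
    · rw [hA k (by omega), smul_zero]
  · intro h; exact absurd (Finset.mem_range.mpr hp.pos) h


section
variable {G : Type*} [Group G]

/-- conjugation by `z` on a subgroup it normalizes -/
def cj (S : Subgroup G) (z : G) (hz : z ∈ normalizer (S : Set G)) : S →* S where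
  toFun s := ⟨z⁻¹ * s * z, (mem_normalizer_iff''.mp hz s).mp s.2⟩
  map_one' := by ext; simp
  map_mul' a b := by ext; simp [mul_assoc]

theorem coe_cj_iterate (S : Subgroup G) (z : G) (hz : z ∈ normalizer (S : Set G)) (i : ℕ) (s : S) :
    (((cj S z hz)^[i] s : S) : G) = (z ^ i)⁻¹ * s * z ^ i := by
  induction i with
  | zero => simp
  | succ i ih =>
    rw [Function.iterate_succ_apply']
    show z⁻¹ * (((cj S z hz)^[i] s : S) : G) * z = _
    rw [ih, pow_succ]; group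

/-- the commutator map `s ↦ s⁻¹ z⁻¹ s z` on `S` -/
def eg (S : Subgroup G) (z : G) (hz : z ∈ normalizer (S : Set G)) (s : S) : S := s⁻¹ * cj S z hz s

theorem coe_eg_iterate (S : Subgroup G) (z : G) (hz : z ∈ normalizer (S : Set G)) (i : ℕ) (s : S) :
    (((eg S z hz)^[i] s : S) : G) = (fun y : G => y⁻¹ * z⁻¹ * y * z)^[i] s := by
  induction i with
  | zero => simp
  | succ i ih =>
    rw [Function.iterate_succ_apply', Function.iterate_succ_apply', ← ih]
    show (((eg S z hz)^[i] s : S) : G)⁻¹ * (z⁻¹ * (((eg S z hz)^[i] s : S) : G) * z) = _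
    group

theorem cj_eg_commute (S : Subgroup G) (z : G) (hz : z ∈ normalizer (S : Set G)) :
    Function.Commute (cj S z hz) (eg S z hz) := by
  intro s
  simp only [eg, map_mul, map_inv]

theorem prod_conj_eq_pow {A : Type*} [CommGroup A] {p : ℕ} (hp : p.Prime)
    (S : Subgroup G) (z : G) (hz : z ∈ normalizer (S : Set G)) (hzp : z ^ p ∈ S)
    (hE : ∀ w ∈ S, (fun y : G => y⁻¹ * z⁻¹ * y * z)^[p - 1] w = 1)
    (ψ : S →* A) (s : S) :
    ∏ i ∈ Finset.range p, ψ ((cj S z hz)^[i] s) = ψ s ^ p := by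
  let M := S → Additive A
  let ζ : Module.End ℤ M := LinearMap.funLeft ℤ (Additive A) (cj S z hz)
  let ψ₀ : M := fun s => Additive.ofMul (ψ s)
  have hζ : ∀ (n : ℕ) (g : M) (s : S), (ζ ^ n) g s = g ((cj S z hz)^[n] s) := by
    intro n
    induction n with
    | zero => intro g s; simp
    | succ n ih =>
      intro g s
      rw [pow_succ, Module.End.mul_apply, ih, Function.iterate_succ_apply']
      rfl
  have hδ : ∀ (k : ℕ) (s : S), ((ζ - 1) ^ k) ψ₀ s = Additive.ofMul (ψ ((eg S z hz)^[k] s)) := by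
    intro k
    induction k with
    | zero => intro s; simp [ψ₀]
    | succ k ih =>
      intro s
      rw [pow_succ', Module.End.mul_apply, LinearMap.sub_apply, Pi.sub_apply]
      have e1 : ζ (((ζ - 1) ^ k) ψ₀) s = ((ζ - 1) ^ k) ψ₀ (cj S z hz s) := rfl
      rw [e1, Module.End.one_apply, ih, ih, Function.iterate_succ_apply',
        ← (cj_eg_commute S z hz).iterate_right k s]
      rw [← ofMul_div]
      congr 1
      simp only [eg, map_mul, map_inv]
      rw [div_eq_mul_inv, mul_comm]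
  have h1 : ((ζ - 1) ^ (p - 1)) ψ₀ = 0 := by
    funext s
    rw [hδ]
    have : (eg S z hz)^[p - 1] s = 1 := by
      apply Subtype.ext
      rw [coe_eg_iterate]
      exact hE s s.2
    rw [this, map_one]; rfl
  have h2 : ((1 + (ζ - 1)) ^ p) ψ₀ = ψ₀ := by
    rw [add_sub_cancel]
    funext s
    rw [hζ]
    have e : (cj S z hz)^[p] s = (⟨z ^ p, hzp⟩ : S)⁻¹ * s * ⟨z ^ p, hzp⟩ := by
      apply Subtype.ext
      rw [coe_cj_iterate]; rfl
    show Additive.ofMul (ψ ((cj S z hz)^[p] s)) = Additive.ofMul (ψ s)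
    have e2 : ψ ((cj S z hz)^[p] s) = ψ s := by
      rw [e, map_mul, map_mul, map_inv, mul_comm, mul_inv_cancel_left]
    rw [e2]
  have key := alg_key hp (ζ - 1) ψ₀ h1 h2
  rw [add_sub_cancel] at key
  have key2 := congrFun key s
  rw [LinearMap.sum_apply, Finset.sum_apply] at key2
  simp only [hζ] at key2
  apply Additive.ofMul.injective
  rw [ofMul_prod, ofMul_pow]
  exact key2

end

/-- Product over a finite set carrying a free "cyclic action" of prime period whose block products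
are trivial. -/
theorem prod_blocks {Ω A : Type*} [DecidableEq Ω] [CommMonoid A] (p : ℕ) (hp : 0 < p)
    (τ : Ω → Ω) (c : Ω → A) :
    ∀ (F : Finset Ω), (∀ ω ∈ F, τ ω ∈ F) → (∀ ω ∈ F, τ^[p] ω = ω) →
      (∀ ω ∈ F, ∀ i, 0 < i → i < p → τ^[i] ω ≠ ω) →
      (∀ ω ∈ F, ∏ i ∈ Finset.range p, c (τ^[i] ω) = 1) →
      ∏ ω ∈ F, c ω = 1 ∧ p ∣ F.card := by
  intro F
  induction F using Finset.strongInduction with
  | H F ih =>
    intro hinv hper hfree hprod
    rcases F.eq_empty_or_nonempty with rfl | ⟨ω₀, hω₀⟩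
    · simp
    have hiter : ∀ i, ∀ ω ∈ F, τ^[i] ω ∈ F := by
      intro i
      induction i with
      | zero => intro ω hω; simpa using hω
      | succ i ihi => intro ω hω; rw [Function.iterate_succ_apply']; exact hinv _ (ihi ω hω)
    set O : Finset Ω := (Finset.range p).image (fun i => τ^[i] ω₀) with hO
    have hOsub : O ⊆ F := by
      intro x hx
      obtain ⟨i, _, rfl⟩ := Finset.mem_image.mp hx
      exact hiter i ω₀ hω₀
    have hinj : ∀ i ∈ Finset.range p, ∀ j ∈ Finset.range p, τ^[i] ω₀ = τ^[j] ω₀ → i = j := by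
      have key : ∀ i j, i ≤ j → j < p → τ^[i] ω₀ = τ^[j] ω₀ → i = j := by
        intro i j hij hj h
        by_contra hne
        have h1 : τ^[j - i] (τ^[i] ω₀) = τ^[i] ω₀ := by
          rw [← Function.iterate_add_apply, Nat.sub_add_cancel hij]; exact h.symm
        exact hfree _ (hiter i ω₀ hω₀) (j - i) (by omega) (by omega) h1
      intro i hi j hj h
      rcases Nat.le_total i j with hij | hji
      · exact key i j hij (Finset.mem_range.mp hj) h
      · exact (key j i hji (Finset.mem_range.mp hi) h.symm).symm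
    have hinv' : ∀ ω ∈ F \ O, τ ω ∈ F \ O := by
      intro x hx
      rw [Finset.mem_sdiff] at hx ⊢
      refine ⟨hinv x hx.1, fun hτ => hx.2 ?_⟩
      obtain ⟨i, hi, hi'⟩ := Finset.mem_image.mp hτ
      have hi := Finset.mem_range.mp hi
      have hx' : x = τ^[p - 1 + i] ω₀ := by
        rw [Function.iterate_add_apply, hi']
        have : τ^[p - 1] (τ x) = τ^[p] x := by
          rw [← Function.iterate_succ_apply]
          congr 2; omega
        rw [this, hper x hx.1]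
      rw [hx']
      rcases Nat.eq_zero_or_pos i with rfl | hipos
      · exact Finset.mem_image.mpr ⟨p - 1, Finset.mem_range.mpr (by omega), rfl⟩
      · refine Finset.mem_image.mpr ⟨i - 1, Finset.mem_range.mpr (by omega), ?_⟩
        have e : p - 1 + i = (i - 1) + p := by omega
        rw [e, Function.iterate_add_apply, hper ω₀ hω₀]
    have hss : F \ O ⊂ F := by
      refine Finset.ssubset_iff_subset_ne.mpr ⟨Finset.sdiff_subset, fun h => ?_⟩
      have h1 : ω₀ ∈ F \ O := by rw [h]; exact hω₀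
      exact (Finset.mem_sdiff.mp h1).2 (Finset.mem_image.mpr ⟨0, Finset.mem_range.mpr hp, rfl⟩)
    obtain ⟨ih1, ih2⟩ := ih (F \ O) hss hinv' (fun ω hω => hper ω (Finset.mem_sdiff.mp hω).1)
      (fun ω hω => hfree ω (Finset.mem_sdiff.mp hω).1)
      (fun ω hω => hprod ω (Finset.mem_sdiff.mp hω).1)
    have hOprod : ∏ ω ∈ O, c ω = 1 := by
      rw [hO, Finset.prod_image hinj]
      exact hprod ω₀ hω₀
    have hOcard : O.card = p := by
      rw [hO, Finset.card_image_of_injOn (fun i hi j hj h => hinj i hi j hj h), Finset.card_range]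
    constructor
    · rw [← Finset.prod_sdiff hOsub, ih1, hOprod, one_mul]
    · rw [← Finset.card_sdiff_add_card_eq_card hOsub, hOcard]
      exact Dvd.dvd.add ih2 dvd_rfl

theorem exists_min_orderOf {G : Type*} [Monoid G] (s : Set G) (hs : s.Nonempty) :
    ∃ x ∈ s, ∀ y ∈ s, orderOf x ≤ orderOf y := by
  obtain ⟨x, hx, hmin⟩ := (InvImage.wf (orderOf : G → ℕ) Nat.lt_wfRel.wf).has_min s hs
  exact ⟨x, hx, fun y hy => not_lt.mp (hmin y hy)⟩

theorem orderOf_pow_lt {G : Type*} [Group G] {p : ℕ} (hp : p.Prime) {x : G} {k : ℕ}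
    (hx : orderOf x = p ^ k) (hx1 : x ≠ 1) {n : ℕ} (hn : p ∣ n) : orderOf (x ^ n) < orderOf x := by
  have hk : k ≠ 0 := by
    rintro rfl
    rw [pow_zero, orderOf_eq_one_iff] at hx
    exact hx1 hx
  have hpd : p ∣ orderOf x := by rw [hx]; exact dvd_pow_self p hk
  have h1 : orderOf (x ^ p) = orderOf x / p := orderOf_pow_of_dvd hp.ne_zero hpd
  obtain ⟨m, rfl⟩ := hn
  have h2 : orderOf (x ^ (p * m)) ∣ orderOf (x ^ p) := by
    rw [pow_mul]; exact orderOf_pow_dvd m
  have hpos : 0 < orderOf x := by rw [hx]; exact pow_pos hp.pos k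
  have h3 : 0 < orderOf (x ^ p) := by
    rw [h1]; exact Nat.div_pos (Nat.le_of_dvd hpos hpd) hp.pos
  calc orderOf (x ^ (p * m)) ≤ orderOf (x ^ p) := Nat.le_of_dvd h3 h2
    _ = orderOf x / p := h1
    _ < orderOf x := Nat.div_lt_self hpos hp.one_lt

/-- If `Q ⊴ P` is not contained in `S ≤ P`, some element of `Q` outside `S` normalizes `S` and
has its `p`-th power in `S`. -/
theorem exists_normalizing {G : Type*} [Group G] [Finite G] {p : ℕ} [Fact p.Prime]
    (P S Q : Subgroup G) (hP : IsPGroup p P) (hQP : Q ≤ P) (hPQ : P ≤ normalizer (Q : Set G))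
    (hS : S ≤ P) (hQS : ¬ Q ≤ S) :
    ∃ z ∈ Q, z ∉ S ∧ z ∈ normalizer (S : Set G) ∧ z ^ p ∈ S := by
  have hp : p.Prime := Fact.out
  have hR : IsPGroup p (S ⊔ Q : Subgroup G) := hP.to_le (sup_le hS hQP)
  have hne : S ≠ S ⊔ Q := fun h => hQS (by rw [h]; exact le_sup_right)
  have hlt := Cfsg.Agent.H40.Alp.card_lt_card_inf_normalizer (S ⊔ Q) hR S le_sup_left hne
  have hex : ∃ y ∈ (S ⊔ Q) ⊓ normalizer (S : Set G), y ∉ S := by
    by_contra hcon
    simp only [not_exists, not_and, not_not] at hcon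
    exact absurd (Subgroup.card_le_of_le (fun y hy => hcon y hy)) (not_le.mpr hlt)
  obtain ⟨y, hy, hyS⟩ := hex
  have hy1 : y ∈ ((S ⊔ Q : Subgroup G) : Set G) := hy.1
  rw [Subgroup.coe_mul_of_left_le_normalizer_right S Q (hS.trans hPQ)] at hy1
  obtain ⟨s, hs, q, hq, rfl⟩ := Set.mem_mul.mp hy1
  have hqN : q ∈ normalizer (S : Set G) := by
    have : q = s⁻¹ * (s * q) := by group
    rw [this]
    exact mul_mem (inv_mem (le_normalizer hs)) hy.2
  have hqS : q ∉ S := fun h => hyS (mul_mem hs h)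
  obtain ⟨z, ⟨hzQ, hzS, hzN⟩, hmin⟩ := exists_min_orderOf
    {z : G | z ∈ Q ∧ z ∉ S ∧ z ∈ normalizer (S : Set G)} ⟨q, hq, hqS, hqN⟩
  refine ⟨z, hzQ, hzS, hzN, ?_⟩
  by_contra hzp
  have h1 := hmin (z ^ p) ⟨pow_mem hzQ p, hzp, pow_mem hzN p⟩
  obtain ⟨k, hk⟩ := (IsPGroup.iff_orderOf.mp hP) ⟨z, hQP hzQ⟩
  have hk' : orderOf z = p ^ k := by rw [← hk, Subgroup.orderOf_mk]
  have hz1 : z ≠ 1 := fun h => hzS (h ▸ one_mem S)
  exact absurd h1 (not_le.mpr (orderOf_pow_lt hp hk' hz1 dvd_rfl))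


theorem zpowers_smul_eq {G : Type*} [Group G] {α : Type*} [MulAction G α] (g : G) (ω : α)
    (h : g • ω = ω) (k : zpowers g) : k • ω = ω := by
  have h1 : zpowers g ≤ MulAction.stabilizer G ω :=
    (Subgroup.zpowers_le).mpr (MulAction.mem_stabilizer_iff.mpr h)
  exact MulAction.mem_stabilizer_iff.mp (h1 k.2)

/-- Transfer of a `p`-element as a product over its fixed cosets, when the contributions of the
proper powers vanish. -/
theorem transfer_eq_prod_fixed {G : Type*} [Group G] [Finite G] {A : Type*} [CommGroup A]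
    (H : Subgroup G) (ϕ : H →* A) (ϕ' : G → A) (hϕ' : ∀ x (h : x ∈ H), ϕ ⟨x, h⟩ = ϕ' x)
    {p : ℕ} (hp : p.Prime) (g : G) {k : ℕ} (hg : orderOf g = p ^ k)
    (hmin : ∀ (x : G) (n : ℕ), p ∣ n → x⁻¹ * g ^ n * x ∈ H → ϕ' (x⁻¹ * g ^ n * x) = 1) :
    MonoidHom.transfer ϕ g =
      ∏ ω ∈ (Set.toFinite {ω : G ⧸ H | g • ω = ω}).toFinset, ϕ' (ω.out⁻¹ * g * ω.out) := by
  classical
  let _ : Fintype (Quotient (MulAction.orbitRel (zpowers g) (G ⧸ H))) := Fintype.ofFinite _
  rw [MonoidHom.transfer_eq_prod_quotient_orbitRel_zpowers_quot]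
  have h1 : ∀ q : Quotient (MulAction.orbitRel (zpowers g) (G ⧸ H)),
      ϕ ⟨q.out.out⁻¹ * g ^ Function.minimalPeriod (g • ·) q.out * q.out.out,
          QuotientGroup.out_conj_pow_minimalPeriod_mem H g q.out⟩ =
      ϕ' (q.out.out⁻¹ * g ^ Function.minimalPeriod (g • ·) q.out * q.out.out) := fun q => hϕ' _ _
  rw [Finset.prod_congr rfl (fun q _ => h1 q)]
  have h2 : ∀ q : Quotient (MulAction.orbitRel (zpowers g) (G ⧸ H)),
      ϕ' (q.out.out⁻¹ * g ^ Function.minimalPeriod (g • ·) q.out * q.out.out) ≠ 1 →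
      g • q.out = q.out := by
    intro q hq
    by_contra hfix
    apply hq
    have hd : Function.minimalPeriod (g • ·) q.out ∣ p ^ k := by
      rw [← hg, ← MulAction.pow_smul_eq_iff_minimalPeriod_dvd, pow_orderOf_eq_one, one_smul]
    obtain ⟨m, -, hm⟩ := (Nat.dvd_prime_pow hp).mp hd
    have hm0 : m ≠ 0 := by
      rintro rfl
      rw [pow_zero, Function.minimalPeriod_eq_one_iff_isFixedPt] at hm
      exact hfix hm
    exact hmin _ _ (by rw [hm]; exact dvd_pow_self p hm0)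
      (QuotientGroup.out_conj_pow_minimalPeriod_mem H g q.out)
  rw [← Finset.prod_filter_of_ne (fun q _ => h2 q)]
  have hfixout : ∀ ω : G ⧸ H, g • ω = ω →
      (Quotient.mk'' ω : Quotient (MulAction.orbitRel (zpowers g) (G ⧸ H))).out = ω := by
    intro ω hω
    have h3 : (MulAction.orbitRel (zpowers g) (G ⧸ H))
        (Quotient.mk'' ω : Quotient (MulAction.orbitRel (zpowers g) (G ⧸ H))).out ω :=
      Quotient.mk_out (s := MulAction.orbitRel (zpowers g) (G ⧸ H)) ω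
    rw [MulAction.orbitRel_apply] at h3
    obtain ⟨k, hk⟩ := h3
    rw [← hk]
    exact zpowers_smul_eq g ω hω k
  refine Finset.prod_bij' (fun q _ => q.out) (fun ω _ => Quotient.mk'' ω) ?_ ?_ ?_ ?_ ?_
  · intro q hq
    rw [Set.Finite.mem_toFinset]
    exact (Finset.mem_filter.mp hq).2
  · intro ω hω
    rw [Set.Finite.mem_toFinset] at hω
    refine Finset.mem_filter.mpr ⟨Finset.mem_univ _, ?_⟩
    rw [hfixout ω hω]; exact hω
  · intro q _
    exact Quotient.out_eq' q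
  · intro ω hω
    rw [Set.Finite.mem_toFinset] at hω
    exact hfixout ω hω
  · intro q hq
    have hfix := (Finset.mem_filter.mp hq).2
    have : Function.minimalPeriod (g • ·) q.out = 1 :=
      Function.minimalPeriod_eq_one_iff_isFixedPt.mpr hfix
    rw [this, pow_one]


section TheoremA
variable {G : Type*} [Group G]

theorem smul_mk_eq_iff (H : Subgroup G) (z g : G) :
    z • (g : G ⧸ H) = (g : G ⧸ H) ↔ g⁻¹ * z * g ∈ H := by
  have h1 : z • (g : G ⧸ H) = ((z * g : G) : G ⧸ H) := rfl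
  rw [h1, eq_comm, QuotientGroup.eq, mul_assoc]

theorem mem_normalizer_of_map_conj_eq {H : Subgroup G} {x : G}
    (h : H.map (MulAut.conj x).toMonoidHom = H) : x ∈ normalizer (H : Set G) := by
  rw [mem_normalizer_iff'']
  intro y
  rw [← Cfsg.Agent.H40.mem_map_conj_iff, h]

/-- The abelianization map of the subgroup `N`, extended by `1` outside `N`. -/
noncomputable def piN (N : Subgroup G) (x : G) : Abelianization N := by
  classical exact if h : x ∈ N then Abelianization.of ⟨x, h⟩ else 1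

theorem piN_of_mem (N : Subgroup G) {x : G} (h : x ∈ N) : piN N x = Abelianization.of ⟨x, h⟩ := by
  unfold piN; rw [dif_pos h]

theorem piN_conj (N : Subgroup G) {x y : G} (hx : x ∈ N) (hy : y ∈ N) :
    piN N (y⁻¹ * x * y) = piN N x := by
  rw [piN_of_mem N (mul_mem (mul_mem (inv_mem hy) hx) hy), piN_of_mem N hx]
  have : (⟨y⁻¹ * x * y, mul_mem (mul_mem (inv_mem hy) hx) hy⟩ : N) =
      (⟨y, hy⟩ : N)⁻¹ * ⟨x, hx⟩ * ⟨y, hy⟩ := rfl
  rw [this, map_mul, map_mul, map_inv, mul_comm, mul_inv_cancel_left]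

theorem piN_eq_one_of_mem_commutator (N : Subgroup G) {x : G} (hx : x ∈ ⁅N, N⁆) : piN N x = 1 := by
  rw [← Subgroup.map_subtype_commutator] at hx
  obtain ⟨y, hy, rfl⟩ := hx
  show piN N (y : G) = 1
  rw [piN_of_mem N y.2]
  exact (QuotientGroup.eq_one_iff y).mpr hy

theorem mem_commutator_of_piN_eq_one (N : Subgroup G) {x : G} (hx : x ∈ N) (h : piN N x = 1) :
    x ∈ ⁅N, N⁆ := by
  rw [piN_of_mem N hx] at h
  rw [← Subgroup.map_subtype_commutator]
  exact ⟨⟨x, hx⟩, (QuotientGroup.eq_one_iff _).mp h, rfl⟩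

/-- A chosen element of `Q` outside `S` normalizing `S` with `p`-th power in `S`. -/
noncomputable def zsel (p : ℕ) (Q S : Subgroup G) : G := by
  classical exact
    if h : ∃ z ∈ Q, z ∉ S ∧ z ∈ normalizer (S : Set G) ∧ z ^ p ∈ S then h.choose else 1

theorem zsel_spec (p : ℕ) (Q S : Subgroup G)
    (h : ∃ z ∈ Q, z ∉ S ∧ z ∈ normalizer (S : Set G) ∧ z ^ p ∈ S) :
    zsel p Q S ∈ Q ∧ zsel p Q S ∉ S ∧ zsel p Q S ∈ normalizer (S : Set G) ∧ zsel p Q S ^ p ∈ S := by
  unfold zsel; rw [dif_pos h]; exact h.choose_spec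

/-- The block map on cosets of `P`. -/
noncomputable def tau (p : ℕ) (P Q : Subgroup G) (ω : G ⧸ P) : G ⧸ P :=
  zsel p Q (P ⊓ MulAction.stabilizer G ω) • ω

theorem stab_smul_eq (P : Subgroup G) (ω : G ⧸ P) (y : G) (hyP : y ∈ P)
    (hy : y ∈ normalizer ((P ⊓ MulAction.stabilizer G ω : Subgroup G) : Set G)) :
    P ⊓ MulAction.stabilizer G (y • ω) = P ⊓ MulAction.stabilizer G ω := by
  ext x
  rw [Subgroup.mem_inf, MulAction.stabilizer_smul_eq_stabilizer_map_conj,
    Cfsg.Agent.H40.mem_map_conj_iff, (mem_normalizer_iff''.mp hy x), Subgroup.mem_inf]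
  constructor
  · rintro ⟨h1, h2⟩
    exact ⟨mul_mem (mul_mem (inv_mem hyP) h1) hyP, h2⟩
  · rintro ⟨h1, h2⟩
    refine ⟨?_, h2⟩
    have : x = y * (y⁻¹ * x * y) * y⁻¹ := by group
    rw [this]
    exact mul_mem (mul_mem hyP h1) (inv_mem hyP)

theorem tau_iterate (p : ℕ) (P Q : Subgroup G) (ω : G ⧸ P)
    (hzP : zsel p Q (P ⊓ MulAction.stabilizer G ω) ∈ P)
    (hzN : zsel p Q (P ⊓ MulAction.stabilizer G ω) ∈
      normalizer ((P ⊓ MulAction.stabilizer G ω : Subgroup G) : Set G)) (i : ℕ) :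
    (tau p P Q)^[i] ω = zsel p Q (P ⊓ MulAction.stabilizer G ω) ^ i • ω := by
  induction i with
  | zero => simp
  | succ i ih =>
    rw [Function.iterate_succ_apply', ih, tau,
      stab_smul_eq P ω _ (pow_mem hzP i) (pow_mem hzN i), pow_succ', mul_smul]

theorem out_mem_iff (P N : Subgroup G) (hPN : P ≤ N) (g : G) :
    ((g : G ⧸ P)).out ∈ N ↔ g ∈ N := by
  obtain ⟨h, hh⟩ := QuotientGroup.mk_out_eq_mul P g
  rw [hh]
  exact ⟨fun h1 => by
    have : g = g * h * (h : G)⁻¹ := by group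
    rw [this]; exact mul_mem h1 (inv_mem (hPN h.2)), fun h1 => mul_mem h1 (hPN h.2)⟩

theorem piN_out_eq (P N : Subgroup G) (hPN : P ≤ N) (u g : G) (hfix : g⁻¹ * u * g ∈ P) :
    piN N (((g : G ⧸ P)).out⁻¹ * u * ((g : G ⧸ P)).out) = piN N (g⁻¹ * u * g) := by
  obtain ⟨h, hh⟩ := QuotientGroup.mk_out_eq_mul P g
  rw [hh]
  have : (g * (h : G))⁻¹ * u * (g * h) = (h : G)⁻¹ * (g⁻¹ * u * g) * h := by group
  rw [this]
  exact piN_conj N (hPN hfix) (hPN h.2)

/-- The conjugation map `s ↦ g⁻¹ s g` from `P ∩ Stab(gP)` into `N ≥ P`, followed by the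
abelianization of `N`. -/
noncomputable def psiHom (P N : Subgroup G) (hPN : P ≤ N) (g : G) :
    (P ⊓ MulAction.stabilizer G (g : G ⧸ P) : Subgroup G) →* Abelianization N :=
  (Abelianization.of).comp
    { toFun := fun s => ⟨g⁻¹ * (s : G) * g,
        hPN ((smul_mk_eq_iff P (s : G) g).mp (MulAction.mem_stabilizer_iff.mp s.2.2))⟩
      map_one' := by ext; simp
      map_mul' := fun a b => by ext; simp [mul_assoc] }

theorem psiHom_apply (P N : Subgroup G) (hPN : P ≤ N) (g : G)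
    (s : (P ⊓ MulAction.stabilizer G (g : G ⧸ P) : Subgroup G)) :
    psiHom P N hPN g s = piN N (g⁻¹ * (s : G) * g) := by
  rw [piN_of_mem N (hPN ((smul_mk_eq_iff P (s : G) g).mp (MulAction.mem_stabilizer_iff.mp s.2.2)))]
  rfl

theorem smul_eq_mk_mul_out (P : Subgroup G) (z : G) (ω : G ⧸ P) :
    z • ω = ((z * ω.out : G) : G ⧸ P) := by
  conv_lhs => rw [← QuotientGroup.out_eq' ω]
  rfl

theorem mem_of_pow_mem_of_coprime (S : Subgroup G) (z : G) {i p : ℕ} (h : Nat.Coprime i p)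
    (hi : z ^ i ∈ S) (hp : z ^ p ∈ S) : z ∈ S := by
  have h1 := Nat.gcd_eq_gcd_ab i p
  rw [h] at h1
  have h2 : z = (z ^ i) ^ (Nat.gcdA i p) * (z ^ p) ^ (Nat.gcdB i p) := by
    rw [← zpow_natCast, ← zpow_natCast, ← zpow_mul, ← zpow_mul, ← zpow_add, ← h1]; simp
  rw [h2]; exact mul_mem (zpow_mem hi _) (zpow_mem hp _)

theorem block_prod {p : ℕ} (hp : p.Prime) (P Q N : Subgroup G) (hPN : P ≤ N)
    (hE : ∀ u ∈ P, ∀ z ∈ Q, (fun y : G => y⁻¹ * z⁻¹ * y * z)^[p - 1] u = 1)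
    (u : G) (huP : u ∈ P) (g : G) (hfix : u • (g : G ⧸ P) = g) (z : G) (hzQ : z ∈ Q)
    (hzN : z ∈ normalizer ((P ⊓ MulAction.stabilizer G (g : G ⧸ P) : Subgroup G) : Set G))
    (hzp : z ^ p ∈ P ⊓ MulAction.stabilizer G (g : G ⧸ P))
    (hminp : piN N (g⁻¹ * u ^ p * g) = 1) :
    ∏ i ∈ Finset.range p,
      piN N ((z ^ i • (g : G ⧸ P)).out⁻¹ * u * (z ^ i • (g : G ⧸ P)).out) = 1 := by
  have huS : u ∈ P ⊓ MulAction.stabilizer G (g : G ⧸ P) :=
    Subgroup.mem_inf.mpr ⟨huP, MulAction.mem_stabilizer_iff.mpr hfix⟩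
  have hterm : ∀ i : ℕ, piN N ((z ^ i • (g : G ⧸ P)).out⁻¹ * u * (z ^ i • (g : G ⧸ P)).out) =
      psiHom P N hPN g ((cj _ z hzN)^[i] ⟨u, huS⟩) := by
    intro i
    have e : (z ^ i * g)⁻¹ * u * (z ^ i * g) = g⁻¹ * ((z ^ i)⁻¹ * u * z ^ i) * g := by group
    have hmem : (z ^ i)⁻¹ * u * z ^ i ∈ P ⊓ MulAction.stabilizer G (g : G ⧸ P) :=
      (mem_normalizer_iff''.mp (pow_mem hzN i) u).mp huS
    have hfixi : (z ^ i * g)⁻¹ * u * (z ^ i * g) ∈ P := by
      rw [e]
      exact (smul_mk_eq_iff P _ g).mp (MulAction.mem_stabilizer_iff.mp hmem.2)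
    have h1 : z ^ i • (g : G ⧸ P) = ((z ^ i * g : G) : G ⧸ P) := rfl
    rw [h1, piN_out_eq P N hPN u (z ^ i * g) hfixi, psiHom_apply, coe_cj_iterate, e]
  rw [Finset.prod_congr rfl (fun i _ => hterm i),
    prod_conj_eq_pow hp _ z hzN hzp (fun w hw => hE w hw.1 z hzQ) (psiHom P N hPN g) ⟨u, huS⟩,
    ← map_pow, psiHom_apply]
  exact hminp

theorem inf_commutator_le_general [Finite G] {p : ℕ} [Fact p.Prime] (P : Sylow p G)
    (Q N : Subgroup G) (hQP : Q ≤ (P : Subgroup G))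
    (hPQ : (P : Subgroup G) ≤ normalizer (Q : Set G)) (hPN : (P : Subgroup G) ≤ N)
    (hN : ∀ g : G, (∀ z ∈ Q, g⁻¹ * z * g ∈ (P : Subgroup G)) → g ∈ N)
    (hE : ∀ u ∈ (P : Subgroup G), ∀ z ∈ Q, (fun y : G => y⁻¹ * z⁻¹ * y * z)^[p - 1] u = 1) :
    (P : Subgroup G) ⊓ commutator G ≤ ⁅N, N⁆ := by
  classical
  have hp : p.Prime := Fact.out
  by_contra hcon
  have hne : {w : G | w ∈ (P : Subgroup G) ∧ w ∈ commutator G ∧ w ∉ ⁅N, N⁆}.Nonempty := by
    by_contra h
    apply hcon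
    intro w hw
    by_contra hw'
    exact h ⟨w, hw.1, hw.2, hw'⟩
  obtain ⟨u, ⟨huP, huG, huN⟩, humin⟩ := exists_min_orderOf _ hne
  have hu1 : u ≠ 1 := fun h => huN (h ▸ one_mem _)
  obtain ⟨k, hk⟩ := (IsPGroup.iff_orderOf.mp P.isPGroup') ⟨u, huP⟩
  have hk' : orderOf u = p ^ k := by rw [← hk, Subgroup.orderOf_mk]
  have hmin : ∀ (x : G) (n : ℕ), p ∣ n → x⁻¹ * u ^ n * x ∈ (P : Subgroup G) →
      piN N (x⁻¹ * u ^ n * x) = 1 := by
    intro x n hn hmem
    apply piN_eq_one_of_mem_commutator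
    by_contra hw
    have hnorm : (commutator G).Normal := inferInstance
    have h1 := humin (x⁻¹ * u ^ n * x) ⟨hmem, hnorm.conj_mem' _ (pow_mem huG n) x, hw⟩
    have h2 : orderOf (u ^ n) = orderOf (x⁻¹ * u ^ n * x) :=
      SemiconjBy.orderOf_eq x⁻¹ (by unfold SemiconjBy; group)
    rw [← h2] at h1
    exact absurd h1 (not_le.mpr (orderOf_pow_lt hp hk' hu1 hn))
  -- the transfer
  let φ : (P : Subgroup G) →* Abelianization N := (Abelianization.of).comp (Subgroup.inclusion hPN)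
  have hφ : ∀ x (h : x ∈ (P : Subgroup G)), φ ⟨x, h⟩ = piN N x := by
    intro x h
    rw [piN_of_mem N (hPN h)]; rfl
  have hV := transfer_eq_prod_fixed (P : Subgroup G) φ (piN N) hφ hp u hk' hmin
  have hV1 : MonoidHom.transfer φ u = 1 :=
    MonoidHom.mem_ker.mp (Abelianization.commutator_subset_ker (MonoidHom.transfer φ) huG)
  rw [hV1] at hV
  set Fix : Finset (G ⧸ (P : Subgroup G)) :=
    (Set.toFinite {ω : G ⧸ (P : Subgroup G) | u • ω = ω}).toFinset with hFix
  have hmemFix : ∀ ω, ω ∈ Fix ↔ u • ω = ω := fun ω => by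
    rw [hFix, Set.Finite.mem_toFinset]; rfl
  set c : G ⧸ (P : Subgroup G) → Abelianization N := fun ω => piN N (ω.out⁻¹ * u * ω.out) with hc
  -- data for the cosets outside `N`
  have hdata : ∀ ω : G ⧸ (P : Subgroup G), ω.out ∉ N →
      zsel p Q ((P : Subgroup G) ⊓ MulAction.stabilizer G ω) ∈ Q ∧
      zsel p Q ((P : Subgroup G) ⊓ MulAction.stabilizer G ω) ∉
        (P : Subgroup G) ⊓ MulAction.stabilizer G ω ∧
      zsel p Q ((P : Subgroup G) ⊓ MulAction.stabilizer G ω) ∈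
        normalizer (((P : Subgroup G) ⊓ MulAction.stabilizer G ω : Subgroup G) : Set G) ∧
      zsel p Q ((P : Subgroup G) ⊓ MulAction.stabilizer G ω) ^ p ∈
        (P : Subgroup G) ⊓ MulAction.stabilizer G ω := by
    intro ω hω
    apply zsel_spec
    apply exists_normalizing (P : Subgroup G) _ Q P.isPGroup' hQP hPQ inf_le_left
    intro hQS
    apply hω
    apply hN
    intro z hz
    have h1 := MulAction.mem_stabilizer_iff.mp (hQS hz).2
    rw [← QuotientGroup.out_eq' ω] at h1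
    exact (smul_mk_eq_iff _ z _).mp h1
  have hF' : ∏ ω ∈ Fix.filter (fun ω => ¬ ω.out ∈ N), c ω = 1 ∧
      p ∣ (Fix.filter (fun ω => ¬ ω.out ∈ N)).card := by
    apply prod_blocks p hp.pos (tau p (P : Subgroup G) Q) c
    · -- invariance
      intro ω hω
      obtain ⟨hωF, hωN⟩ := Finset.mem_filter.mp hω
      obtain ⟨hzQ, hzS, hzN, hzp⟩ := hdata ω hωN
      have hzP := hQP hzQ
      have hst := stab_smul_eq (P : Subgroup G) ω _ hzP hzN
      refine Finset.mem_filter.mpr ⟨?_, ?_⟩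
      · rw [hmemFix]
        have h1 : u ∈ (P : Subgroup G) ⊓ MulAction.stabilizer G ω :=
          Subgroup.mem_inf.mpr ⟨huP, MulAction.mem_stabilizer_iff.mpr ((hmemFix ω).mp hωF)⟩
        rw [← hst] at h1
        exact MulAction.mem_stabilizer_iff.mp h1.2
      · rw [tau, smul_eq_mk_mul_out, out_mem_iff _ N hPN]
        intro h
        apply hωN
        have : ω.out = (zsel p Q ((P : Subgroup G) ⊓ MulAction.stabilizer G ω))⁻¹ *
            (zsel p Q ((P : Subgroup G) ⊓ MulAction.stabilizer G ω) * ω.out) := by group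
        rw [this]
        exact mul_mem (inv_mem (hPN hzP)) h
    · -- period
      intro ω hω
      obtain ⟨hωF, hωN⟩ := Finset.mem_filter.mp hω
      obtain ⟨hzQ, hzS, hzN, hzp⟩ := hdata ω hωN
      rw [tau_iterate p _ Q ω (hQP hzQ) hzN]
      exact MulAction.mem_stabilizer_iff.mp hzp.2
    · -- freeness
      intro ω hω i hi0 hip
      obtain ⟨hωF, hωN⟩ := Finset.mem_filter.mp hω
      obtain ⟨hzQ, hzS, hzN, hzp⟩ := hdata ω hωN
      rw [tau_iterate p _ Q ω (hQP hzQ) hzN]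
      intro h
      apply hzS
      have hi : zsel p Q ((P : Subgroup G) ⊓ MulAction.stabilizer G ω) ^ i ∈
          (P : Subgroup G) ⊓ MulAction.stabilizer G ω :=
        Subgroup.mem_inf.mpr ⟨pow_mem (hQP hzQ) i, MulAction.mem_stabilizer_iff.mpr h⟩
      have hcop : Nat.Coprime i p := (Nat.coprime_of_lt_prime (by omega) hip hp).symm
      exact mem_of_pow_mem_of_coprime _ _ hcop hi hzp
    · -- block products
      intro ω hω
      obtain ⟨hωF, hωN⟩ := Finset.mem_filter.mp hω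
      obtain ⟨hzQ, hzS, hzN, hzp⟩ := hdata ω hωN
      rw [Finset.prod_congr rfl (fun i _ => by rw [tau_iterate p _ Q ω (hQP hzQ) hzN])]
      obtain ⟨g, rfl⟩ := QuotientGroup.mk_surjective ω
      have hfix : u • (g : G ⧸ (P : Subgroup G)) = g := (hmemFix _).mp hωF
      have hup : g⁻¹ * u ^ p * g ∈ (P : Subgroup G) := by
        have h1 : (u ^ p) • (g : G ⧸ (P : Subgroup G)) = g := by
          have : u ∈ MulAction.stabilizer G (g : G ⧸ (P : Subgroup G)) :=
            MulAction.mem_stabilizer_iff.mpr hfix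
          exact MulAction.mem_stabilizer_iff.mp (pow_mem this p)
        exact (smul_mk_eq_iff _ _ g).mp h1
      exact block_prod hp (P : Subgroup G) Q N hPN hE u huP g hfix _ hzQ hzN hzp
        (hmin g p dvd_rfl hup)
  obtain ⟨hF'1, hF'2⟩ := hF'
  have hFN : ∏ ω ∈ Fix.filter (fun ω => ω.out ∈ N), c ω =
      piN N u ^ (Fix.filter (fun ω => ω.out ∈ N)).card := by
    apply Finset.prod_eq_pow_card
    intro ω hω
    obtain ⟨hωF, hωN⟩ := Finset.mem_filter.mp hω
    exact piN_conj N (hPN huP) hωN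
  have hsplit := Finset.prod_filter_mul_prod_filter_not Fix (fun ω => ω.out ∈ N) c
  rw [hFN, hF'1, mul_one, ← hV] at hsplit
  have hcard := Finset.card_filter_add_card_filter_not (s := Fix) (fun ω => ω.out ∈ N)
  have hFixcard : ¬ p ∣ Fix.card := by
    have hpg : IsPGroup p (zpowers u) := by
      apply IsPGroup.of_card (n := k); rw [Nat.card_zpowers, hk']
    have h1 := hpg.card_modEq_card_fixedPoints (G ⧸ (P : Subgroup G))
    have h2 : MulAction.fixedPoints (zpowers u) (G ⧸ (P : Subgroup G)) = {ω | u • ω = ω} := by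
      ext ω
      rw [MulAction.mem_fixedPoints]
      exact ⟨fun h => h ⟨u, mem_zpowers u⟩, fun h k => zpowers_smul_eq u ω h k⟩
    have h3 : Nat.card (MulAction.fixedPoints (zpowers u) (G ⧸ (P : Subgroup G))) = Fix.card := by
      rw [h2, Nat.card_coe_set_eq, Set.ncard_eq_toFinset_card _ (Set.toFinite _)]
    rw [h3] at h1
    intro hd
    apply P.not_dvd_index
    rw [Subgroup.index_eq_card]
    exact (Nat.ModEq.dvd_iff h1 dvd_rfl).mpr hd
  have hFNcard : ¬ p ∣ (Fix.filter (fun ω => ω.out ∈ N)).card := by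
    intro h
    apply hFixcard
    rw [← hcard]
    exact Dvd.dvd.add h hF'2
  have hup : piN N u ^ p = 1 := by
    have h1 := hmin 1 p dvd_rfl (by simpa using pow_mem huP p)
    have h2 : piN N (u ^ p) = piN N u ^ p := by
      rw [piN_of_mem N (hPN (pow_mem huP p)), piN_of_mem N (hPN huP), ← map_pow]; rfl
    rw [← h2]; simpa using h1
  have hcop : Nat.gcd (Fix.filter (fun ω => ω.out ∈ N)).card p = 1 :=
    ((Nat.Prime.coprime_iff_not_dvd hp).mpr hFNcard).symm
  have hfinal : piN N u = 1 := by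
    have := pow_gcd_eq_one.mpr ⟨hsplit, hup⟩
    rw [hcop, pow_one] at this; exact this
  exact huN (mem_commutator_of_piN_eq_one N (hPN huP) hfinal)

end TheoremA


section WeaklyClosed
variable {G : Type*} [Group G]

theorem le_normalizer_of_weaklyClosed (P Q : Subgroup G) (hQ : Cfsg.IsWeaklyClosed Q P) :
    P ≤ normalizer (Q : Set G) := by
  intro x hx
  apply mem_normalizer_of_map_conj_eq
  apply hQ.2 x
  intro y hy
  rw [Cfsg.Agent.H40.mem_map_conj_iff] at hy
  have : y = x * (x⁻¹ * y * x) * x⁻¹ := by group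
  rw [this]
  exact mul_mem (mul_mem hx (hQ.1 hy)) (inv_mem hx)

theorem mem_normalizer_of_weaklyClosed (P Q : Subgroup G) (hQ : Cfsg.IsWeaklyClosed Q P) (g : G)
    (h : ∀ z ∈ Q, g⁻¹ * z * g ∈ P) : g ∈ normalizer (Q : Set G) := by
  have h1 : Q.map (MulAut.conj g⁻¹).toMonoidHom = Q := by
    apply hQ.2 g⁻¹
    intro y hy
    rw [Cfsg.Agent.H40.mem_map_conj_iff] at hy
    have : y = g⁻¹ * (g⁻¹⁻¹ * y * g⁻¹) * g := by group
    rw [this]
    exact h _ hy
  have h2 := mem_normalizer_of_map_conj_eq h1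
  exact inv_mem_iff.mp h2

/-- **Hall--Wielandt**, commutator form: `P ∩ G' ≤ N_G(Q)'`. -/
theorem inf_commutator_le_of_weaklyClosed [Finite G] {p : ℕ} [Fact p.Prime] (P : Sylow p G)
    (Q : Subgroup G) (hQ : Cfsg.IsWeaklyClosed Q (P : Subgroup G))
    (hE : ∀ u ∈ (P : Subgroup G), ∀ z ∈ Q, (fun y : G => y⁻¹ * z⁻¹ * y * z)^[p - 1] u = 1) :
    (P : Subgroup G) ⊓ commutator G ≤
      ⁅normalizer (Q : Set G), normalizer (Q : Set G)⁆ :=
  inf_commutator_le_general P Q (normalizer (Q : Set G)) hQ.1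
    (le_normalizer_of_weaklyClosed _ Q hQ) (le_normalizer_of_weaklyClosed _ Q hQ)
    (mem_normalizer_of_weaklyClosed _ Q hQ) hE

end WeaklyClosed

open scoped commutatorElement

section Fiber
variable {G : Type*} [Group G]

/-- The fibre product `G ×_{G/K} G`. -/
def fib (K : Subgroup G) [hK : K.Normal] : Subgroup (G × G) where
  carrier := {x | x.1⁻¹ * x.2 ∈ K}
  one_mem' := by simp
  mul_mem' := by
    intro a b ha hb
    have e : (a * b).1⁻¹ * (a * b).2 = b.1⁻¹ * (a.1⁻¹ * a.2) * b.1 * (b.1⁻¹ * b.2) := by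
      simp only [Prod.fst_mul, Prod.snd_mul]; group
    show (a * b).1⁻¹ * (a * b).2 ∈ K
    rw [e]
    exact mul_mem (hK.conj_mem' _ ha _) hb
  inv_mem' := by
    intro a ha
    have e : (a⁻¹).1⁻¹ * (a⁻¹).2 = a.1 * (a.1⁻¹ * a.2)⁻¹ * a.1⁻¹ := by
      simp only [Prod.fst_inv, Prod.snd_inv]; group
    show (a⁻¹).1⁻¹ * (a⁻¹).2 ∈ K
    rw [e]
    exact hK.conj_mem _ (inv_mem ha) _

theorem mem_fib (K : Subgroup G) [K.Normal] (x : G × G) : x ∈ fib K ↔ x.1⁻¹ * x.2 ∈ K := Iff.rfl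

theorem map_iterate_comm {H : Type*} [Group H] (f : G →* H) (z : G) (n : ℕ) (u : G) :
    f ((fun y : G => y⁻¹ * z⁻¹ * y * z)^[n] u) =
      (fun y : H => y⁻¹ * (f z)⁻¹ * y * f z)^[n] (f u) := by
  induction n generalizing u with
  | zero => simp
  | succ n ih =>
    rw [Function.iterate_succ_apply, Function.iterate_succ_apply, ih]
    simp

theorem exists_sylow_fib [Finite G] {p : ℕ} [Fact p.Prime] (P : Sylow p G) (K : Subgroup G)
    [K.Normal] : ∃ Ps : Sylow p (fib K),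
      (∀ γ : fib K, γ.1.1 ∈ (P : Subgroup G) → γ.1.2 ∈ (P : Subgroup G) → γ ∈ Ps) ∧
      (∀ γ ∈ Ps, γ.1.1 ∈ (P : Subgroup G) ∧ γ.1.2 ∈ (P : Subgroup G)) := by
  have h0 : IsPGroup p ((((P : Subgroup G).prod (P : Subgroup G)).subgroupOf (fib K) :
      Subgroup (fib K))) := by
    rintro ⟨γ, hγ⟩
    have hγ' : γ.1.1 ∈ (P : Subgroup G) ∧ γ.1.2 ∈ (P : Subgroup G) := hγ
    obtain ⟨k1, hk1⟩ := P.isPGroup' ⟨γ.1.1, hγ'.1⟩
    obtain ⟨k2, hk2⟩ := P.isPGroup' ⟨γ.1.2, hγ'.2⟩
    have hk1' : γ.1.1 ^ p ^ k1 = 1 := by simpa using congrArg Subtype.val hk1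
    have hk2' : γ.1.2 ^ p ^ k2 = 1 := by simpa using congrArg Subtype.val hk2
    refine ⟨k1 + k2, ?_⟩
    apply Subtype.ext
    apply Subtype.ext
    apply Prod.ext
    · show γ.1.1 ^ p ^ (k1 + k2) = 1
      rw [pow_add, pow_mul, hk1', one_pow]
    · show γ.1.2 ^ p ^ (k1 + k2) = 1
      rw [pow_add, mul_comm, pow_mul, hk2', one_pow]
  obtain ⟨Ps, hPs⟩ := h0.exists_le_sylow
  refine ⟨Ps, fun γ h1 h2 => hPs (show γ.1 ∈ (P : Subgroup G).prod (P : Subgroup G) from ⟨h1, h2⟩),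
    fun γ hγ => ?_⟩
  constructor
  · let pr : fib K →* G := (MonoidHom.fst G G).comp (fib K).subtype
    have hT : IsPGroup p ((Ps : Subgroup (fib K)).map pr) := Ps.isPGroup'.map pr
    have hle : (P : Subgroup G) ≤ (Ps : Subgroup (fib K)).map pr := by
      intro a ha
      refine ⟨⟨(a, a), by rw [mem_fib]; simp⟩, hPs (show ((a, a) : G × G) ∈
        (P : Subgroup G).prod (P : Subgroup G) from ⟨ha, ha⟩), rfl⟩
    have heq := P.is_maximal' hT hle
    have : pr γ ∈ (Ps : Subgroup (fib K)).map pr := ⟨γ, hγ, rfl⟩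
    rw [heq] at this
    exact this
  · let pr : fib K →* G := (MonoidHom.snd G G).comp (fib K).subtype
    have hT : IsPGroup p ((Ps : Subgroup (fib K)).map pr) := Ps.isPGroup'.map pr
    have hle : (P : Subgroup G) ≤ (Ps : Subgroup (fib K)).map pr := by
      intro a ha
      refine ⟨⟨(a, a), by rw [mem_fib]; simp⟩, hPs (show ((a, a) : G × G) ∈
        (P : Subgroup G).prod (P : Subgroup G) from ⟨ha, ha⟩), rfl⟩
    have heq := P.is_maximal' hT hle
    have : pr γ ∈ (Ps : Subgroup (fib K)).map pr := ⟨γ, hγ, rfl⟩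
    rw [heq] at this
    exact this

theorem conj_mem_commutator_of_map_eq {A B : Subgroup G} {n : G}
    (hA : A.map (MulAut.conj n).toMonoidHom = A) (hB : B.map (MulAut.conj n).toMonoidHom = B)
    {e : G} (he : e ∈ ⁅A, B⁆) : n * e * n⁻¹ ∈ ⁅A, B⁆ := by
  have h := Subgroup.map_commutator A B (MulAut.conj n).toMonoidHom
  rw [hA, hB] at h
  rw [← h]
  exact ⟨e, he, rfl⟩

theorem commutatorElement_mul_central {Y : Type*} [Group Y] (α γ κ μ : Y)
    (hκ : ∀ y : Y, κ * y = y * κ) (hμ : ∀ y : Y, μ * y = y * μ) :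
    ⁅α * κ, γ * μ⁆ = ⁅α, γ⁆ := by
  rw [commutatorElement_def, commutatorElement_def]
  have h1 : ∀ y : Y, κ * y * κ⁻¹ = y := fun y => by rw [hκ y, mul_inv_cancel_right]
  have h2 : ∀ y : Y, μ * y * μ⁻¹ = y := fun y => by rw [hμ y, mul_inv_cancel_right]
  calc α * κ * (γ * μ) * (α * κ)⁻¹ * (γ * μ)⁻¹
      = α * (κ * (γ * μ) * κ⁻¹) * α⁻¹ * (γ * μ)⁻¹ := by group
    _ = α * (γ * μ) * α⁻¹ * (γ * μ)⁻¹ := by rw [h1]
    _ = α * γ * (μ * α⁻¹ * μ⁻¹) * γ⁻¹ := by group
    _ = α * γ * α⁻¹ * γ⁻¹ := by rw [h2]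

theorem conj_mem_comm_inf (N K : Subgroup G) [hK : K.Normal] {n e : G} (hn : n ∈ N)
    (he : e ∈ ⁅N ⊓ K, N⁆) : n * e * n⁻¹ ∈ ⁅N ⊓ K, N⁆ := by
  have hNmap : N.map (MulAut.conj n).toMonoidHom = N := by
    ext x
    rw [Cfsg.Agent.H40.mem_map_conj_iff]
    constructor
    · intro h
      have : x = n * (n⁻¹ * x * n) * n⁻¹ := by group
      rw [this]; exact mul_mem (mul_mem hn h) (inv_mem hn)
    · intro h; exact mul_mem (mul_mem (inv_mem hn) h) hn
  have hN₀map : (N ⊓ K).map (MulAut.conj n).toMonoidHom = N ⊓ K := by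
    ext x
    rw [Cfsg.Agent.H40.mem_map_conj_iff, Subgroup.mem_inf, Subgroup.mem_inf]
    constructor
    · rintro ⟨h1, h2⟩
      have e : x = n * (n⁻¹ * x * n) * n⁻¹ := by group
      exact ⟨by rw [e]; exact mul_mem (mul_mem hn h1) (inv_mem hn),
        by rw [e]; exact hK.conj_mem _ h2 _⟩
    · rintro ⟨h1, h2⟩
      exact ⟨mul_mem (mul_mem (inv_mem hn) h1) hn, hK.conj_mem' _ h2 _⟩
  exact conj_mem_commutator_of_map_eq hN₀map hNmap he

/-- In `N`, modulo `[N ∩ K, N]` the commutator `[a,c]` only depends on the cosets `a(N ∩ K)`,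
`c(N ∩ K)`. -/
theorem commutator_mem_of_fib (N K : Subgroup G) [hK : K.Normal] {a b c d : G}
    (ha : a ∈ N) (hb : b ∈ N) (hc : c ∈ N) (hd : d ∈ N) (hab : a⁻¹ * b ∈ K) (hcd : c⁻¹ * d ∈ K) :
    (⁅a, c⁆)⁻¹ * ⁅b, d⁆ ∈ ⁅N ⊓ K, N⁆ := by
  have hE'n : ((⁅N ⊓ K, N⁆ : Subgroup G).subgroupOf N).Normal := by
    refine ⟨fun e he n => ?_⟩
    rw [mem_subgroupOf] at he ⊢
    exact conj_mem_comm_inf N K n.2 he
  let q := QuotientGroup.mk' ((⁅N ⊓ K, N⁆ : Subgroup G).subgroupOf N)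
  have hcentral : ∀ (x : N), (x : G) ∈ K → ∀ y : N ⧸ ((⁅N ⊓ K, N⁆ : Subgroup G).subgroupOf N),
      q x * y = y * q x := by
    intro x hx y
    obtain ⟨y, rfl⟩ := QuotientGroup.mk'_surjective _ y
    rw [← map_mul, ← map_mul]
    symm
    apply QuotientGroup.eq.mpr
    rw [mem_subgroupOf]
    have e : (((y * x)⁻¹ * (x * y) : N) : G) = ⁅(x : G)⁻¹, (y : G)⁻¹⁆ := by
      rw [commutatorElement_def]; push_cast; group
    rw [e]
    exact commutator_mem_commutator (inv_mem (Subgroup.mem_inf.mpr ⟨x.2, hx⟩)) (inv_mem y.2)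
  have key : q ⁅(⟨b, hb⟩ : N), (⟨d, hd⟩ : N)⁆ = q ⁅(⟨a, ha⟩ : N), (⟨c, hc⟩ : N)⁆ := by
    rw [map_commutatorElement, map_commutatorElement]
    have e1 : q (⟨b, hb⟩ : N) = q ⟨a, ha⟩ * q ((⟨a, ha⟩ : N)⁻¹ * ⟨b, hb⟩) := by
      rw [← map_mul]; congr 1; group
    have e2 : q (⟨d, hd⟩ : N) = q ⟨c, hc⟩ * q ((⟨c, hc⟩ : N)⁻¹ * ⟨d, hd⟩) := by
      rw [← map_mul]; congr 1; group
    rw [e1, e2]
    exact commutatorElement_mul_central _ _ _ _ (hcentral _ hab) (hcentral _ hcd)
  have h1 := QuotientGroup.eq.mp key.symm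
  rw [mem_subgroupOf] at h1
  exact h1

/-- **Hall--Wielandt**, relative form for a normal subgroup `K`:
`P ∩ K ∩ K' ≤ [N_G(Q) ∩ K, N_G(Q)]`. -/
theorem inf_commutator_le_of_weaklyClosed_normal [Finite G] {p : ℕ} [Fact p.Prime] (P : Sylow p G)
    (Q : Subgroup G) (hQ : Cfsg.IsWeaklyClosed Q (P : Subgroup G))
    (hE : ∀ u ∈ (P : Subgroup G), ∀ z ∈ Q, (fun y : G => y⁻¹ * z⁻¹ * y * z)^[p - 1] u = 1)
    (K : Subgroup G) [hK : K.Normal] :
    (P : Subgroup G) ⊓ K ⊓ ⁅K, K⁆ ≤ ⁅normalizer (Q : Set G) ⊓ K, normalizer (Q : Set G)⁆ := by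
  obtain ⟨Ps, hPs1, hPs2⟩ := exists_sylow_fib P K
  have hPN := le_normalizer_of_weaklyClosed _ Q hQ
  let Qs : Subgroup (fib K) := (Q.prod Q).subgroupOf (fib K)
  let Ns : Subgroup (fib K) :=
    ((normalizer (Q : Set G)).prod (normalizer (Q : Set G))).subgroupOf (fib K)
  have key : (Ps : Subgroup (fib K)) ⊓ commutator (fib K) ≤ ⁅Ns, Ns⁆ := by
    apply inf_commutator_le_general Ps Qs Ns
    · intro γ hγ
      exact hPs1 γ (hQ.1 hγ.1) (hQ.1 hγ.2)
    · intro γ hγ
      obtain ⟨h1, h2⟩ := hPs2 γ hγ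
      rw [mem_normalizer_iff]
      intro δ
      exact and_congr (mem_normalizer_iff.mp (hPN h1) δ.1.1) (mem_normalizer_iff.mp (hPN h2) δ.1.2)
    · intro γ hγ
      exact ⟨hPN (hPs2 γ hγ).1, hPN (hPs2 γ hγ).2⟩
    · intro γ h
      constructor
      · apply mem_normalizer_of_weaklyClosed _ Q hQ
        intro z hz
        exact (hPs2 _ (h ⟨(z, z), by rw [mem_fib]; simp⟩ ⟨hz, hz⟩)).1
      · apply mem_normalizer_of_weaklyClosed _ Q hQ
        intro z hz
        exact (hPs2 _ (h ⟨(z, z), by rw [mem_fib]; simp⟩ ⟨hz, hz⟩)).2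
    · intro u hu z hz
      apply Subtype.ext
      apply Prod.ext
      · have := map_iterate_comm ((MonoidHom.fst G G).comp (fib K).subtype) z (p - 1) u
        exact this.trans (hE _ (hPs2 u hu).1 _ hz.1)
      · have := map_iterate_comm ((MonoidHom.snd G G).comp (fib K).subtype) z (p - 1) u
        exact this.trans (hE _ (hPs2 u hu).2 _ hz.2)
  -- the subgroup of pairs congruent modulo `[N ∩ K, N]`
  let W : Subgroup (fib K) :=
    { carrier := {γ | γ.1.1 ∈ normalizer (Q : Set G) ∧ γ.1.2 ∈ normalizer (Q : Set G) ∧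
        γ.1.1⁻¹ * γ.1.2 ∈ ⁅normalizer (Q : Set G) ⊓ K, normalizer (Q : Set G)⁆}
      one_mem' := ⟨one_mem _, one_mem _, by simp⟩
      mul_mem' := by
        rintro γ δ ⟨h1, h2, h3⟩ ⟨h4, h5, h6⟩
        refine ⟨mul_mem h1 h4, mul_mem h2 h5, ?_⟩
        have e : (γ * δ).1.1⁻¹ * (γ * δ).1.2 =
            δ.1.1⁻¹ * (γ.1.1⁻¹ * γ.1.2) * δ.1.1⁻¹⁻¹ * (δ.1.1⁻¹ * δ.1.2) := by
          show (γ.1.1 * δ.1.1)⁻¹ * (γ.1.2 * δ.1.2) = _
          group
        rw [e]
        exact mul_mem (conj_mem_comm_inf _ K (inv_mem h4) h3) h6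
      inv_mem' := by
        rintro γ ⟨h1, h2, h3⟩
        refine ⟨inv_mem h1, inv_mem h2, ?_⟩
        have e : (γ⁻¹).1.1⁻¹ * (γ⁻¹).1.2 = γ.1.2 * (γ.1.1⁻¹ * γ.1.2)⁻¹ * γ.1.2⁻¹ := by
          show (γ.1.1⁻¹)⁻¹ * γ.1.2⁻¹ = _
          group
        rw [e]
        exact conj_mem_comm_inf _ K h2 (inv_mem h3) }
  have hW : ⁅Ns, Ns⁆ ≤ W := by
    rw [Subgroup.commutator_le]
    intro γ hγ δ hδ
    refine ⟨?_, ?_, ?_⟩
    · show ⁅γ.1.1, δ.1.1⁆ ∈ normalizer (Q : Set G)
      rw [commutatorElement_def]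
      exact mul_mem (mul_mem (mul_mem hγ.1 hδ.1) (inv_mem hγ.1)) (inv_mem hδ.1)
    · show ⁅γ.1.2, δ.1.2⁆ ∈ normalizer (Q : Set G)
      rw [commutatorElement_def]
      exact mul_mem (mul_mem (mul_mem hγ.2 hδ.2) (inv_mem hγ.2)) (inv_mem hδ.2)
    · exact commutator_mem_of_fib _ K hγ.1 hγ.2 hδ.1 hδ.2 γ.2 δ.2
  intro u hu
  obtain ⟨hu1, huKK⟩ := Subgroup.mem_inf.mp hu
  obtain ⟨huP, huK⟩ := Subgroup.mem_inf.mp hu1
  have h1 : (⟨(u, 1), by rw [mem_fib]; simpa using huK⟩ : fib K) ∈ Ps :=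
    hPs1 _ huP (one_mem _)
  have h2 : (⟨(u, 1), by rw [mem_fib]; simpa using huK⟩ : fib K) ∈ commutator (fib K) := by
    rw [← Subgroup.map_subtype_commutator] at huKK
    obtain ⟨u', hu', rfl⟩ := huKK
    let ι : K →* fib K :=
      { toFun := fun k => ⟨((k : G), 1), by rw [mem_fib]; simp⟩
        map_one' := rfl
        map_mul' := fun a b => by
          apply Subtype.ext
          apply Prod.ext
          · rfl
          · simp }
    have h := Abelianization.commutator_subset_ker ((Abelianization.of).comp ι) hu'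
    exact (QuotientGroup.eq_one_iff _).mp (MonoidHom.mem_ker.mp h)
  have h3 := hW (key (Subgroup.mem_inf.mpr ⟨h1, h2⟩))
  have h4 : u⁻¹ * 1 ∈ ⁅normalizer (Q : Set G) ⊓ K, normalizer (Q : Set G)⁆ := h3.2.2
  simpa using inv_mem h4

end Fiber


section Residual
variable {G : Type*} [Group G]

theorem eq_bot_of_le_commutator_top {Y : Type*} [Group Y] [hY : Group.IsNilpotent Y]
    (X : Subgroup Y) (h : X ≤ ⁅X, ⊤⁆) : X = ⊥ := by
  obtain ⟨n, hn⟩ := Subgroup.nilpotent_iff_lowerCentralSeries.mp hY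
  have key : ∀ k, X ≤ (⊤ : Subgroup Y).lowerCentralSeries k := by
    intro k
    induction k with
    | zero => exact le_top
    | succ k ih => exact h.trans (Subgroup.commutator_mono ih le_rfl)
  exact le_bot_iff.mp (hn ▸ key n)

theorem coe_mem_pResidual (p : ℕ) (N : Subgroup G) (x : N) (hx : x ∈ Cfsg.pResidual p N) :
    (x : G) ∈ Cfsg.pResidual p G := by
  unfold Cfsg.pResidual at hx ⊢
  induction hx using closure_induction with
  | mem y hy =>
    apply Subgroup.subset_closure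
    show Nat.Coprime (orderOf (y : G)) p
    rw [Subgroup.orderOf_coe]
    exact hy
  | one => exact one_mem _
  | mul a b _ _ iha ihb => exact mul_mem iha ihb
  | inv a _ iha => exact inv_mem iha

/-- From `P ∩ O^p(G) ≤ [N ∩ O^p(G), N]` (with `P ≤ N`) to `O^p(N) = O^p(G) ∩ N`. -/
theorem pResidualOf_eq_of_le_commutator [Finite G] {p : ℕ} [Fact p.Prime] (P : Sylow p G)
    (N : Subgroup G) (hPN : (P : Subgroup G) ≤ N)
    (hle : (P : Subgroup G) ⊓ Cfsg.pResidual p G ≤ ⁅N ⊓ Cfsg.pResidual p G, N⁆) :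
    Cfsg.pResidualOf p N = Cfsg.pResidual p G ⊓ N := by
  have hp : p.Prime := Fact.out
  apply le_antisymm
  · apply le_inf
    · rintro _ ⟨x, hx, rfl⟩
      exact coe_mem_pResidual p N x hx
    · exact Subgroup.map_subtype_le _
  · have hquot : IsPGroup p (N ⧸ Cfsg.pResidual p N) := by
      intro x
      obtain ⟨g, rfl⟩ := QuotientGroup.mk_surjective x
      obtain ⟨k, hk⟩ := Cfsg.Agent.H40.exists_pow_prime_pow_coprime (p := p) g
      refine ⟨k, ?_⟩
      rw [← QuotientGroup.mk_pow]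
      exact (QuotientGroup.eq_one_iff _).mpr (Subgroup.subset_closure hk)
    haveI : Group.IsNilpotent (N ⧸ Cfsg.pResidual p N) := hquot.isNilpotent
    set A : Subgroup N := (N ⊓ Cfsg.pResidual p G).subgroupOf N with hA
    have hAcomm : (⁅N ⊓ Cfsg.pResidual p G, N⁆ : Subgroup G).subgroupOf N ≤ ⁅A, ⊤⁆ := by
      intro s hs
      rw [mem_subgroupOf] at hs
      have h1 : (⁅A, ⊤⁆ : Subgroup N).map N.subtype = ⁅N ⊓ Cfsg.pResidual p G, N⁆ := by
        rw [Subgroup.map_commutator, hA, Subgroup.map_subgroupOf_eq_of_le inf_le_left,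
          ← MonoidHom.range_eq_map, Subgroup.range_subtype]
      rw [← h1] at hs
      obtain ⟨s', hs', hss⟩ := hs
      have : s' = s := Subtype.ext hss
      rw [← this]; exact hs'
    have hX : A.map (QuotientGroup.mk' (Cfsg.pResidual p N)) ≤
        ⁅A.map (QuotientGroup.mk' (Cfsg.pResidual p N)), ⊤⁆ := by
      rintro _ ⟨x, hx, rfl⟩
      obtain ⟨s, hs, m, hm, rfl⟩ := Cfsg.Agent.H40.exists_mul_sylow_pResidual (P.subtype hPN) x
      have hsP : (s : G) ∈ (P : Subgroup G) := by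
        have : s ∈ ((P.subtype hPN : Sylow p N) : Subgroup N) := hs
        rw [Sylow.coe_subtype, mem_subgroupOf] at this
        exact this
      have hmK : (m : G) ∈ Cfsg.pResidual p G := coe_mem_pResidual p N m hm
      have hxK : ((s * m : N) : G) ∈ Cfsg.pResidual p G := (mem_subgroupOf.mp hx).2
      have hsK : (s : G) ∈ Cfsg.pResidual p G := by
        have : (s : G) = ((s * m : N) : G) * (m : G)⁻¹ := by push_cast; group
        rw [this]; exact mul_mem hxK (inv_mem hmK)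
      have hs1 : s ∈ (⁅A, ⊤⁆ : Subgroup N) :=
        hAcomm (mem_subgroupOf.mpr (hle (Subgroup.mem_inf.mpr ⟨hsP, hsK⟩)))
      have hmk : (QuotientGroup.mk' (Cfsg.pResidual p N)) (s * m) =
          (QuotientGroup.mk' (Cfsg.pResidual p N)) s := by
        have hm1 : (QuotientGroup.mk' (Cfsg.pResidual p N)) m = 1 :=
          (QuotientGroup.eq_one_iff m).mpr hm
        rw [map_mul, hm1, mul_one]
      rw [hmk]
      have h2 : (⁅A, ⊤⁆ : Subgroup N).map (QuotientGroup.mk' (Cfsg.pResidual p N)) =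
          ⁅A.map (QuotientGroup.mk' (Cfsg.pResidual p N)), ⊤⁆ := by
        rw [Subgroup.map_commutator,
          Subgroup.map_top_of_surjective _ (QuotientGroup.mk'_surjective _)]
      rw [← h2]
      exact ⟨s, hs1, rfl⟩
    have hbot := eq_bot_of_le_commutator_top _ hX
    intro x hx
    have hxN : x ∈ N := hx.2
    have h3 : (QuotientGroup.mk' (Cfsg.pResidual p N)) ⟨x, hxN⟩ ∈
        A.map (QuotientGroup.mk' (Cfsg.pResidual p N)) :=
      ⟨⟨x, hxN⟩, mem_subgroupOf.mpr (Subgroup.mem_inf.mpr ⟨hx.2, hx.1⟩), rfl⟩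
    rw [hbot, Subgroup.mem_bot] at h3
    exact ⟨⟨x, hxN⟩, (QuotientGroup.eq_one_iff _).mp h3, rfl⟩

end Residual

end Cfsg.Agent.H74.HW
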