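import Mathlib
import Cfsg.Agent.H64.JyDefs
import Cfsg.Agent.H64.JzFinal
import Cfsg.Agent.S2950
import Cfsg.Agent.H51.Local
import Cfsg.Agent.H54.UqO2SN
import Cfsg.Agent.Helper55.J48
import Cfsg.Agent.H97.JyPFacts

/-!
# S2953 (team project JY / JX), KILL2: the `P`-side input of the KB glue

For a configuration `Base S M T K L`, with `D := O₂(K ⊔ T)`:
`|T : D| ≤ 2` (elementwise), `T ∖ D` inverts `K` modulo `D`, and `K` has an element `k` with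
`k ^ 3 = 1` outside the base `M`.  From helper97's abstract `pfacts`.
-/

set_option autoImplicit false
open Cfsg

namespace Cfsg.Agent.H74.Jx

open Cfsg.Agent.H64.Jz Cfsg.Agent.H64.Jy

universe u

/-- `N_G(K)` normalizes `O₂(K)` (conjugation form). -/
theorem conj_mem_pCoreOf {G : Type u} [Group G] (K : Subgroup G) (s : G)
    (hs : s ∈ Subgroup.normalizer (K : Set G)) (o : G) (ho : o ∈ pCoreOf 2 K) :
    s * o * s⁻¹ ∈ pCoreOf 2 K := by
  have hOK : pCoreOf 2 K ≤ K := Cfsg.Agent.H51.pCoreOf_le 2 K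
  have hN : (pCoreOf 2 K).map (MulAut.conj s).toMonoidHom ≤ pCoreOf 2 K := by
    refine Cfsg.Agent.H51.le_pCoreOf 2 ?_ ?_ ?_
    · rintro _ ⟨x, hx, rfl⟩
      exact (Subgroup.mem_normalizer_iff.mp hs x).mp (hOK hx)
    · intro k hk
      have hk' : s⁻¹ * k * s ∈ K := by
        have := (Subgroup.mem_normalizer_iff.mp (inv_mem hs) k).mp hk
        simpa using this
      have hkn := Cfsg.Agent.H51.le_normalizer_pCoreOf 2 K hk'
      rw [Subgroup.mem_normalizer_iff]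
      intro h
      constructor
      · rintro ⟨x, hx, rfl⟩
        refine ⟨(s⁻¹ * k * s) * x * (s⁻¹ * k * s)⁻¹,
          (Subgroup.mem_normalizer_iff.mp hkn x).mp hx, ?_⟩
        show s * ((s⁻¹ * k * s) * x * (s⁻¹ * k * s)⁻¹) * s⁻¹ = k * (s * x * s⁻¹) * k⁻¹
        group
      · rintro ⟨x, hx, hxe⟩
        refine ⟨(s⁻¹ * k * s)⁻¹ * x * (s⁻¹ * k * s), ?_, ?_⟩
        · have := (Subgroup.mem_normalizer_iff.mp (inv_mem hkn) x).mp hx
          simpa using this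
        · have hxe' : s * x * s⁻¹ = k * h * k⁻¹ := hxe
          have hh : h = k⁻¹ * (s * x * s⁻¹) * k := by
            rw [hxe']; group
          show s * ((s⁻¹ * k * s)⁻¹ * x * (s⁻¹ * k * s)) * s⁻¹ = h
          rw [hh]; group
    · exact (Cfsg.Agent.H51.pCoreOf_isPGroup 2 K).map _
  exact hN ⟨o, ho, rfl⟩

/-- The `P`-side facts for the KB glue of KILL2. -/
theorem pside {G : Type u} [Group G] [Finite G] (S : Sylow 2 G) (M T K L : Subgroup G)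
    (hB : Base S M T K L) :
    (∀ a ∈ T, ∀ b ∈ T, a ∉ pCoreOf 2 (K ⊔ T) → b ∉ pCoreOf 2 (K ⊔ T) →
      a * b ∈ pCoreOf 2 (K ⊔ T)) ∧
    (∀ x ∈ T, x ∉ pCoreOf 2 (K ⊔ T) → ∀ g ∈ K, x * g * x⁻¹ * g ∈ pCoreOf 2 (K ⊔ T)) ∧
    ∃ k ∈ K, k ^ 3 = 1 ∧ k ∉ M := by
  have hTK : T ≤ Subgroup.normalizer (K : Set G) :=
    normFinal S M T K L hB (stMain S M T K L hB)
  obtain ⟨hZN, hO, hM, hMJ, hT, -, hK, hLmax, hKL⟩ := hB
  obtain ⟨hc2, hsolv, hZ⟩ := hZN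
  obtain ⟨L₀, -, -, huniq, hsn₀, hSyl₀⟩ :=
    Cfsg.Agent.S2950.result hc2 hsolv hZ hO S M hM hMJ T hT K hK
  have hLL₀ : L = L₀ := huniq L hLmax hKL
  have hSyl : IsSylowTwoIn T L := by rw [hLL₀]; exact hSyl₀
  have hsn : (K.subgroupOf L).IsSubnormal := by rw [hLL₀]; exact hsn₀
  have hKL' : K ≤ L := le_sup_left.trans hKL
  have hQT : pCoreOf 2 L ≤ T := Cfsg.Agent.Helper55.J48.pCoreOf_le_of_sylowIn hSyl
  have hOT : pCoreOf 2 K ≤ T := (Cfsg.Agent.H54.Uq.o2sn K L hKL' hsn).trans hQT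
  have hOK : pCoreOf 2 K ≤ K := Cfsg.Agent.H51.pCoreOf_le 2 K
  have hT2 : IsPGroup 2 ↥T := hSyl.2.1
  have hTM : T ≤ M := hT.1.2.2.1
  have hKM : ¬ K ≤ M := hK.2.1
  obtain ⟨hK0, -, -⟩ := hK
  obtain ⟨hgen, hcomm, hidx3, -, -, -⟩ := hK0.1
  have hOnK : K ≤ Subgroup.normalizer (pCoreOf 2 K : Set G) :=
    Cfsg.Agent.H51.le_normalizer_pCoreOf 2 K
  have hOnT : T ≤ Subgroup.normalizer (pCoreOf 2 K : Set G) := by
    intro t ht
    rw [Subgroup.mem_normalizer_iff]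
    intro h
    constructor
    · exact conj_mem_pCoreOf K t (hTK ht) h
    · intro hh
      have := conj_mem_pCoreOf K t⁻¹ (inv_mem (hTK ht)) _ hh
      simpa [mul_assoc] using this
  obtain ⟨D, k, hDT, hOD, hKD, hTD, hidx, hinv, -, -, hkK, hkO, hk3, hKO, -⟩ :=
    Cfsg.Agent.H97.Jy.pfacts K T (pCoreOf 2 K) hT2 hTK hOK hOT hidx3 hOnK hOnT hgen
  have hDQ : D ≤ pCoreOf 2 (K ⊔ T) :=
    Cfsg.Agent.H51.le_pCoreOf 2 (hDT.trans le_sup_right) (sup_le hKD hTD) (hT2.to_le hDT)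
  refine ⟨?_, ?_, k, hkK, hk3, ?_⟩
  · intro a ha b hb haD hbD
    exact hDQ (hidx a ha b hb (fun h => haD (hDQ h)) (fun h => hbD (hDQ h)))
  · intro x hx hxD g hg
    exact hDQ (hOD (hinv x hx (fun h => hxD (hDQ h)) g hg))
  · intro hkM
    apply hKM
    intro g hg
    obtain ⟨o, ho, i, rfl⟩ := hKO g hg
    exact M.mul_mem (hTM (hOT ho)) (M.pow_mem hkM i)

end Cfsg.Agent.H74.Jx

#print axioms Cfsg.Agent.H74.Jx.pside
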