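import Mathlib
import Cfsg.Agent.H64.JzDefs
import Cfsg.Agent.S2950
import Cfsg.Agent.H15.JzSC
import Cfsg.Agent.H4.JzZ2of
import Cfsg.Agent.H3.JzOut1
import Cfsg.Agent.H39.JzLex
import Cfsg.Agent.H74.JzLtCore
import Cfsg.Agent.H74.JzLtH6

/-!
# JZ-LT (S2951, case `T < S`): `lt : StLt`

Interface between the abstract element chase `ltCore` / `ltH6` and the hypotheses `Base`:
S2950 (uniqueness of `L`, `T` Sylow in `L`), S2946 (clash-free copy), `z2_of` (`|Ω₁Z(S)| = 2`).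
-/

set_option autoImplicit false
open Cfsg

namespace Cfsg.Agent.H74.Jz

universe u

open Cfsg.Agent.H64.Jz

/-- `T` Sylow in `L`, `T ≤ P ≤ L`, `P` a 2-group: `P ≤ T`. -/
theorem lt_sylow_max {G : Type u} [Group G] [Finite G] (T L P : Subgroup G)
    (hsyl : IsSylowTwoIn T L) (hTP : T ≤ P) (hPL : P ≤ L) (hP : IsPGroup 2 ↥P) : P ≤ T := by
  have hdvd : T.relIndex P ∣ T.relIndex L :=
    Dvd.intro _ (Subgroup.relIndex_mul_relIndex T P L hTP hPL)
  obtain ⟨n, hn⟩ := hP.index (T.subgroupOf P)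
  have hodd : Odd (T.relIndex P) := Odd.of_dvd_nat hsyl.2.2 hdvd
  have h1 : T.relIndex P = 1 := by
    have hn' : T.relIndex P = 2 ^ n := hn
    rw [hn'] at hodd ⊢
    cases n with
    | zero => rfl
    | succ n =>
      exfalso
      rw [pow_succ] at hodd
      exact (Nat.not_even_iff_odd.mpr hodd) (even_two.mul_left _)
  exact Subgroup.relIndex_eq_one.mp h1

/-- the statement S2946 in helper4's closed form, from the clash-free copy -/
theorem lt_h46 : Cfsg.Agent.H4.Jz.St46.{u} := by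
  intro G _ _ hL hN hZ T hT hT1 K hK Z₀ hZ₀
  exact Cfsg.Agent.H15.J46.s2946 hL hN hZ T hT hT1 K hK Z₀ hZ₀

/-- JZ-LT. -/
theorem lt : StLt.{u} := by
  intro G _ _ S M T K L hB hTS
  have hZs2 : Nat.card ↥(omegaCenterOf (S : Subgroup G)) = 2 :=
    Cfsg.Agent.H4.Jz.z2_of lt_h46 S M T K L hB hTS
  obtain ⟨⟨hChar, hN, hZ⟩, hO, hM, hMJ, hT, hTS', hK, hLmax, hKL⟩ := hB
  have hT2 : IsPGroup 2 ↥T := hT.1.1
  have hT1 : T ≠ ⊥ := hT.1.2.1
  obtain ⟨L0, hL0max, hKL0, huniq, hsn, hsyl⟩ :=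
    Cfsg.Agent.S2950.result hChar hN hZ hO S M hM hMJ T hT K hK
  have hLL0 : L = L0 := huniq L hLmax hKL
  rw [← hLL0] at huniq hsyl
  have hTL : T ≤ L := hsyl.1
  obtain ⟨hc2, hsup⟩ := Cfsg.Agent.H15.J46.s2946 hChar hN hZ T hT2 hT1 K hK.1.1 _ rfl
  have hJT : thompsonSubgroupOf 2 T ≤ T := Cfsg.Agent.Helper55.ThJ.J_le T
  have hZ0mem : ∀ u ∈ omegaCenterOf (thompsonSubgroupOf 2 T),
      u ∈ thompsonSubgroupOf 2 T ∧
        u ∈ Subgroup.centralizer (thompsonSubgroupOf 2 T : Set G) ∧ u ^ 2 = 1 :=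
    fun u hu => Cfsg.Agent.H63.Sn.mem_omegaCenterOf _ hu
  have hsq : ∀ u ∈ omegaCenterOf (thompsonSubgroupOf 2 T), u * u = 1 := by
    intro u hu
    have h := (hZ0mem u hu).2.2
    rw [pow_two] at h
    exact h
  obtain ⟨Z1, hZ1def⟩ : ∃ Z1 : Subgroup G, Z1 = omegaCenterOf (thompsonSubgroupOf 2 T) ⊓
      ((K ⊔ thompsonSubgroupOf 2 T) ⊓
        Subgroup.centralizer ((K ⊔ thompsonSubgroupOf 2 T) : Set G)) := ⟨_, rfl⟩
  rw [← hZ1def] at hsup
  have hZ1Z0 : Z1 ≤ omegaCenterOf (thompsonSubgroupOf 2 T) := by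
    rw [hZ1def]; exact inf_le_left
  have hZ1c : ∀ y ∈ Z1,
      y ∈ Subgroup.centralizer ((K ⊔ thompsonSubgroupOf 2 T : Subgroup G) : Set G) := by
    intro y hy
    rw [hZ1def] at hy
    rw [← Cfsg.Agent.H4.Jz.z2_cent_union]
    exact (Subgroup.mem_inf.mp (Subgroup.mem_inf.mp hy).2).2
  -- (U)
  have hU : ∀ y ∈ Z1, y ≠ 1 → Subgroup.centralizer ({y} : Set G) ≤ L := by
    intro y hy hy1
    refine Cfsg.Agent.H15.Jz.sc_U L (K ⊔ thompsonSubgroupOf 2 T) huniq y ?_ hy1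
      (hsq y (hZ1Z0 hy))
    intro k hk
    rw [Subgroup.mem_centralizer_iff]
    intro h hh
    rw [Set.mem_singleton_iff.mp hh]
    exact ((Subgroup.mem_centralizer_iff.mp (hZ1c y hy)) k hk).symm
  -- (Y)
  have hY : ∀ g : G, ∀ y ∈ Z1, y ≠ 1 → g * y * g⁻¹ ∈ Z1 → g ∈ L := by
    intro g y hy hy1 hgy
    have hC := hU y hy hy1
    have hle : K ⊔ thompsonSubgroupOf 2 T ≤ L.map (MulAut.conj g).toMonoidHom := by
      intro k hk
      rw [Cfsg.Agent.H3.Uq.uqConjMem]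
      apply hC
      rw [Subgroup.mem_centralizer_iff]
      intro h hh
      rw [Set.mem_singleton_iff.mp hh]
      have h1 : k * (g * y * g⁻¹) = (g * y * g⁻¹) * k :=
        (Subgroup.mem_centralizer_iff.mp (hZ1c _ hgy)) k hk
      calc y * (g⁻¹ * k * g) = g⁻¹ * ((g * y * g⁻¹) * k) * g := by group
        _ = g⁻¹ * (k * (g * y * g⁻¹)) * g := by rw [h1]
        _ = g⁻¹ * k * g * y := by group
    have heq := huniq _ (Cfsg.Agent.H3.Jz.jzMaxTwoLocalConj L g hLmax) hle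
    exact Cfsg.Agent.H3.Jz.jzMaxSelfNorm L hLmax
      (Cfsg.Agent.H3.Jz.jzMemNormalizerOfMapConj L g heq)
  -- `x ∈ N_S(T) ∖ T`
  obtain ⟨x, hxS, hxN, hxT⟩ :=
    Cfsg.Agent.H39.Jz.exists_normalizer_not_mem S.isPGroup' hTS' hTS
  have hSLT : ∀ s ∈ (S : Subgroup G), s ∈ L → s ∈ T := by
    intro s hs hsL
    have hP : IsPGroup 2 ↥((S : Subgroup G) ⊓ L) := S.isPGroup'.to_le inf_le_left
    exact lt_sylow_max T L _ hsyl (le_inf hTS' hTL) inf_le_right hP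
      (Subgroup.mem_inf.mpr ⟨hs, hsL⟩)
  have hxL : x ∉ L := fun h => hxT (hSLT x hxS h)
  have hNZ0 : ∀ s ∈ Subgroup.normalizer (T : Set G),
      ∀ v ∈ omegaCenterOf (thompsonSubgroupOf 2 T),
        s * v * s⁻¹ ∈ omegaCenterOf (thompsonSubgroupOf 2 T) := by
    intro s hs v hv
    have hsN := Cfsg.Agent.Helper55.ThJ.normalizer_le T hs
    have hsN' := Cfsg.Agent.Helper55.ThJ.normalizer_le T (inv_mem hs)
    refine Cfsg.Agent.H32.Sq.omegaCenterOf_conj _ ?_ ?_ hv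
    · intro a ha
      exact (Subgroup.mem_normalizer_iff.mp hsN a).mp ha
    · intro a ha
      have h := (Subgroup.mem_normalizer_iff.mp hsN' a).mp ha
      rw [inv_inv] at h
      exact h
  have hSZ : ∀ s ∈ (S : Subgroup G), ∀ z ∈ omegaCenterOf (S : Subgroup G),
      s * z * s⁻¹ = z := by
    intro s hs z hz
    have h1 := (Subgroup.mem_centralizer_iff.mp
      (Cfsg.Agent.H63.Sn.mem_omegaCenterOf _ hz).2.1) s hs
    rw [h1]; group
  -- `Ω₁Z(S) ≤ Z₀`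
  have hZle := Cfsg.Agent.H4.Jz.z2_omega_le (S : Subgroup G)
  have hOT : pCoreOf 2 L ≤ T := Cfsg.Agent.Helper55.J48.pCoreOf_le_of_sylowIn hsyl
  have hZT : omegaCenterOf (S : Subgroup G) ≤ T := by
    intro z hz
    have hz' := hZle hz
    have h1 : z ∈ Subgroup.centralizer (pCoreOf 2 L : Set G) :=
      Subgroup.centralizer_le (SetLike.coe_subset_coe.mpr (hOT.trans hTS'))
        (Subgroup.mem_inf.mp hz').2
    exact hOT (Cfsg.Agent.Helper55.J48.centralizer_pCoreOf_le hChar hLmax.1 h1)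
  have hZsZ0 : omegaCenterOf (S : Subgroup G) ≤ omegaCenterOf (thompsonSubgroupOf 2 T) := by
    intro z hz
    obtain ⟨h1, h2, h3⟩ := Cfsg.Agent.H63.Sn.mem_omegaCenterOf _ hz
    apply Cfsg.Agent.H15.Jz.sc_F1 T
    exact Cfsg.Agent.H63.Sn.omegaCenterOf_mem T (hZT hz)
      (Subgroup.centralizer_le (SetLike.coe_subset_coe.mpr hTS') h2) h3
  have hZs1 : ∀ z ∈ omegaCenterOf (S : Subgroup G), z ∈ Z1 → z = 1 := by
    intro z hz hzZ1
    by_contra hz1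
    have hC := hU z hzZ1 hz1
    obtain ⟨h1, h2, h3⟩ := Cfsg.Agent.H63.Sn.mem_omegaCenterOf _ hz
    apply hTS
    apply le_antisymm hTS'
    intro s hs
    apply hSLT s hs
    apply hC
    rw [Subgroup.mem_centralizer_iff]
    intro h hh
    rw [Set.mem_singleton_iff.mp hh]
    exact ((Subgroup.mem_centralizer_iff.mp h2) s hs).symm
  have hZsne : omegaCenterOf (S : Subgroup G) ≠ ⊥ := by
    apply Cfsg.Agent.H4.Jz.z2_omega_ne_bot S.isPGroup'
    intro h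
    apply hT1
    rw [eq_bot_iff, ← h]
    exact hTS'
  have h6 : ∀ y : G, ∀ z1 ∈ Z1, z1 ≠ 1 →
      y * z1 * y⁻¹ ∉ omegaCenterOf (S : Subgroup G) := by
    intro y z1 hz1 hz1ne
    exact ltH6 S (omegaCenterOf (S : Subgroup G)) K (thompsonSubgroupOf 2 T) (pCoreOf 2 K)
      (hZ S) hZs2 (hT2.to_le hJT) hK.1.1.2.1 hK.1.1.2.2.1 y z1 (hZ1c z1 hz1) hz1ne
  have hcard : Nat.card ↥(omegaCenterOf (thompsonSubgroupOf 2 T)) ≤ 2 * Nat.card ↥Z1 := by
    refine card_le_two_mul _ Z1 _ ?_ hsup hc2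
    intro a ha b hb
    have haZ := hZ0mem a (hZ1Z0 ha)
    have hbZ := hZ0mem b (Subgroup.mem_inf.mp hb).1
    exact ((Subgroup.mem_centralizer_iff.mp haZ.2.1) b hbZ.1).symm
  have key := ltCore L T (omegaCenterOf (S : Subgroup G))
    (omegaCenterOf (thompsonSubgroupOf 2 T)) Z1 x
    hZ1Z0 hcard hY hxL (hNZ0 x hxN) (hSZ x hxS) hTL
    (fun t ht => hNZ0 t (Subgroup.le_normalizer ht)) (fun t ht => hSZ t (hTS' ht))
    hZsZ0 hZs1 hZsne h6
  rcases key with ⟨h1, h2⟩ | ⟨h4, hcen, hrel⟩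
  · exact Or.inl ⟨h1, h2⟩
  · refine Or.inr (Or.inr ⟨?_, h4, hrel⟩)
    apply le_antisymm (Cfsg.Agent.H15.Jz.sc_F1 T)
    intro v hv
    obtain ⟨hvJ, -, hv2⟩ := hZ0mem v hv
    refine Cfsg.Agent.H63.Sn.omegaCenterOf_mem T (hJT hvJ) ?_ hv2
    rw [Subgroup.mem_centralizer_iff]
    intro t ht
    have h := hcen t ht v hv
    calc t * v = (t * v * t⁻¹) * t := by group
      _ = v * t := by rw [h]

example : StLt.{u} := lt

end Cfsg.Agent.H74.Jz
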