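import Cfsg.Agent.H74.TsDefs

/-!
# S2948: assembly of the pieces
-/

set_option autoImplicit false
open Cfsg
open Cfsg.Agent.H52.Sn
open scoped Pointwise

namespace Cfsg.Agent.H74.Ts

universe u

/-- A normal 2-subgroup lies in every 2-subgroup of odd index. -/
theorem pCore_le_of_odd_index {X : Type u} [Group X] [Finite X] (T : Subgroup X)
    (hT : IsPGroup 2 ↥T) (hTi : Odd T.index) : pCore 2 X ≤ T := by
  have : Fact (Nat.Prime 2) := ⟨Nat.prime_two⟩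
  have hQn : (pCore 2 X).Normal := Subgroup.sSup_normal _ (fun _ h => h.1)
  have hQ2 : IsPGroup 2 ↥(pCore 2 X) := Sylow.sSup_of_normal _ (fun _ h => h.2) (fun _ h => h.1)
  have hnd : ¬ 2 ∣ T.index := by
    intro h
    exact (Nat.not_even_iff_odd.mpr hTi) (even_iff_two_dvd.mpr h)
  obtain ⟨P', hP'⟩ := hQ2.exists_le_sylow
  obtain ⟨g, hg⟩ := MulAction.exists_smul_eq X P' (hT.toSylow hnd)
  intro q hq
  have h1 : g⁻¹ * q * g ∈ pCore 2 X := by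
    have := hQn.conj_mem q hq g⁻¹
    simpa using this
  have h2 : g⁻¹ * q * g ∈ (P' : Subgroup X) := hP' h1
  have h3 : q ∈ ((g • P' : Sylow 2 X) : Subgroup X) := by
    rw [Sylow.coe_subgroup_smul, Subgroup.mem_pointwise_smul_iff_inv_smul_mem]
    have e : (MulAut.conj g)⁻¹ • q = g⁻¹ * q * g := by
      simp [MulAut.smul_def]
    rw [e]
    exact h2
  rw [hg] at h3
  exact h3

/-- EX from the pieces. -/
theorem ex (hRed : StRed.{u}) (hSyl : StIfSyl.{u}) (hV : StIfV.{u}) (hZ : StIfZ.{u})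
    (hS : StIfS.{u}) (hCMp : StCM.{u})
    (hD : StD.{u}) (hOdd : StOdd.{u}) (hMJ : StMJ.{u}) (hK1A : StK1A.{u}) (hK1B : StK1B.{u})
    (hK2 : StK2.{u}) (hTrA : StTrA.{u}) (hTrC : StTrC.{u}) (hTrN : StTrN.{u}) (hJS : StJS.{u})
    (hWne : StWne.{u}) (hW4 : StW4.{u}) : StEx.{u} := by
  intro G _ _ hL hNsol hZN T hT hT1 L hLT
  obtain ⟨hT2, hTi, hJT, hJM⟩ := hSyl T L hLT.1
  obtain ⟨hVn, hVel, hQV⟩ := hV L
  have hCT := hZ hZN T L hLT
  have hPS := hS hNsol T L hT1 hLT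
  have := hVn
  obtain ⟨hred1, hred2⟩ := hRed (T.subgroupOf L) ((omegaCenterOf (pCoreOf 2 L)).subgroupOf L)
    hT2 hTi hQV hCT
  have hQn : (pCore 2 ↥L).Normal := Subgroup.sSup_normal _ (fun _ h => h.1)
  have hQ2 : IsPGroup 2 ↥(pCore 2 ↥L) := Sylow.sSup_of_normal _ (fun _ h => h.2) (fun _ h => h.1)
  have hMn : (thompsonSubgroup 2 ↥L).Normal := by
    constructor
    intro n hn g
    have h1 : (thompsonSubgroup 2 ↥L).map (MulAut.conj g).toMonoidHom ≤ thompsonSubgroup 2 ↥L := by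
      unfold Cfsg.thompsonSubgroup
      rw [Subgroup.map_le_iff_le_comap]
      apply sSup_le
      intro A hA'
      rw [← Subgroup.map_le_iff_le_comap]
      refine le_sSup ⟨⟨?_, ?_⟩, ?_⟩
      · have := hA'.1.1
        exact Subgroup.map_isMulCommutative _ _
      · rintro _ ⟨a, ha, rfl⟩
        rw [← map_pow, hA'.1.2 a ha, map_one]
      · intro B hB'
        have e : Nat.card ↥(A.map (MulAut.conj g).toMonoidHom) = Nat.card ↥A :=
          Nat.card_congr (A.equivMapOfInjective _ (MulAut.conj g).injective).symm.toEquiv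
        rw [e]
        exact hA'.2 B hB'
    exact h1 ⟨n, hn, rfl⟩
  have hJTG : thompsonSubgroupOf 2 T ≤ T := by
    unfold Cfsg.thompsonSubgroupOf
    exact Subgroup.map_subtype_le _
  have hMC : ¬ thompsonSubgroup 2 ↥L ≤ Subgroup.centralizer
      (((omegaCenterOf (pCoreOf 2 L)).subgroupOf L : Subgroup ↥L) : Set ↥L) := by
    intro h
    apply hLT.2.1
    intro g hg
    have hgL : g ∈ L := hLT.1.1 (hJTG hg)
    have hgJ : (⟨g, hgL⟩ : ↥L) ∈ (thompsonSubgroupOf 2 T).subgroupOf L := hg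
    exact ⟨⟨g, hgL⟩, hred2 ⟨hJT hgJ, h (hJM hgJ)⟩, rfl⟩
  obtain ⟨D, hCD, hD3, hMD, hDM⟩ := hD ((omegaCenterOf (pCoreOf 2 L)).subgroupOf L) hVel hPS
    hred1 hMC
  have hCn : (Subgroup.centralizer
      (((omegaCenterOf (pCoreOf 2 L)).subgroupOf L : Subgroup ↥L) : Set ↥L)).Normal :=
    inferInstance
  have hodd := hOdd (T.subgroupOf L) _ (pCore 2 ↥L) hT2 hTi hCn hred2 hQV
  have hCM := hCMp (T.subgroupOf L) _ (pCore 2 ↥L) hT2 hTi hCn hQn hred2 hCT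
  have hclos := hMJ T L hLT.1
  obtain ⟨D', hCD', hD3', hMD', hDJ⟩ := hK1A _ (thompsonSubgroup 2 ↥L)
    ((thompsonSubgroupOf 2 T).subgroupOf L) D hCn hMn hJM hclos hCD hD3 hMD hDM
  have hJ2 : IsPGroup 2 ↥((thompsonSubgroupOf 2 T).subgroupOf L) := hT2.to_le hJT
  have hCJ : ⁅Subgroup.centralizer
      (((omegaCenterOf (pCoreOf 2 L)).subgroupOf L : Subgroup ↥L) : Set ↥L),
      (thompsonSubgroupOf 2 T).subgroupOf L⁆ ≤ pCore 2 ↥L :=
    (Subgroup.commutator_mono le_rfl hJM).trans hCM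
  obtain ⟨U, hQU, hU3, hJU, hUJ, hUC⟩ := hK1B _ (pCore 2 ↥L)
    ((thompsonSubgroupOf 2 T).subgroupOf L) D' hCn hQn hQ2 hQV hodd hCJ hJ2 hCD' hD3'
    (hJM.trans hMD') hDJ
  obtain ⟨K', hKgen, hKJ, hK3, hQK, hKQU⟩ := hK2 (pCore 2 ↥L)
    ((thompsonSubgroupOf 2 T).subgroupOf L) U hQn hQ2 hQU hU3 hJU hUJ
  have hKC : ¬ K' ≤ Subgroup.centralizer
      (((omegaCenterOf (pCoreOf 2 L)).subgroupOf L : Subgroup ↥L) : Set ↥L) := by
    intro h
    apply hUC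
    rw [← hKQU]
    exact sup_le h hQV
  obtain ⟨hgenG, hKJG⟩ := hTrA T L K' hLT.1.1 hKgen hKJ
  obtain ⟨hcore3, hcoreL⟩ := hTrC L K' hK3
  obtain ⟨hQKG, hKCG⟩ := hTrN L K' hQK hKC
  have hKL : K'.map L.subtype ≤ L := by
    rintro _ ⟨k, -, rfl⟩
    exact k.2
  have hQT : pCoreOf 2 L ≤ T := by
    rintro _ ⟨q, hq, rfl⟩
    exact pCore_le_of_odd_index (T.subgroupOf L) hT2 hTi hq
  obtain ⟨hw4, hwexp⟩ := hW4 T (K'.map L.subtype) hT hcore3 (hcoreL.trans hQT) hKJG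
  have hwne := hWne L (K'.map L.subtype) hKL hgenG hQKG hcoreL hKCG
  refine ⟨K'.map L.subtype, ⟨hgenG, hKJG, hcore3, ?_, hw4.resolve_right hwne, hwexp⟩, hKL⟩
  intro S₁ hS₁ hJS₁
  exact hJS T L hLT.1 S₁ hS₁.2.1 (hS₁.1.trans (sup_le hKL (hJTG.trans hLT.1.1))) hJS₁

/-- S2948 from the pieces. -/
theorem main4 (hNJ : StNJ.{u}) (hEQ : StEQ.{u}) (hOV : StOV.{u}) (hSyl : StSyl.{u})
    (hEx : StEx.{u}) : StMain4.{u} := by
  intro G _ _ hL hNsol hZN hO S M hM hMJ T hT L hL2 hLM T₀ hT₀ hJT₀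
  have hnj := hNJ S M hMJ T hT
  obtain ⟨heq, hstr⟩ := hEQ M T hT hnj L hL2 hLM T₀ hT₀.2.1 hT₀.1 hJT₀
  have hov : L ∈ jOvergroups T₀ := hOV hL M T₀ L hL2 hLM hT₀ (heq ▸ hnj)
  refine ⟨heq, hstr, hov, fun hTL => ?_⟩
  have hsyl := hSyl M T hT hnj L hL2 hLM hTL
  have hov2 := hOV hL M T L hL2 hLM hsyl hnj
  exact ⟨hov2, hEx hL hNsol hZN T hT.1.1 hT.1.2.1 L hov2⟩

end Cfsg.Agent.H74.Ts
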