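import Mathlib
import Cfsg.Prelude.Def_Blocks
import Cfsg.Agent.H74.W2PDefs
import Cfsg.Agent.H25.W2PLA11c
import Cfsg.Agent.H64.W2PARA2
import Cfsg.Agent.H32.W2PBR
import Cfsg.Agent.H56.W2PFV
import Cfsg.Agent.H61.W2PLA13
import Cfsg.Agent.H25.W2PLA11b
import Cfsg.Agent.H25.W2PLA11a
import Cfsg.Agent.H70.W2PLA10
import Cfsg.Agent.H99.W2PLA4
import Cfsg.Agent.H64.W2PARA1
import Cfsg.Agent.H67.W2PLA2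
import Cfsg.Agent.H24.W2PR1
import Cfsg.Agent.H61.W2PAR
import Cfsg.Agent.H51.W2PPOLY2
import Cfsg.Agent.H20.W2PBR2
import Cfsg.Agent.H56.W2PNS
import Cfsg.Agent.H99.W2PLA12
import Cfsg.Agent.H37.W2PLA7
import Cfsg.Agent.H31.W2PDET
import Cfsg.Agent.H67.W2PLA9
import Cfsg.Agent.H11.W2PLA6
import Cfsg.Agent.H73.W2PLA3
import Cfsg.Agent.H24.W2PCYC
import Cfsg.Agent.H20.W2PBR1
import Cfsg.Agent.H25.W2PT1P2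
import Cfsg.Agent.H25.W2PT1ODD
import Cfsg.Agent.H70.W2PLA10b
import Cfsg.Agent.H51.W2PRED
import Cfsg.Agent.H31.W2PWD
import Cfsg.Agent.H37.W2PLA1
import Cfsg.Agent.H73.W2PLA5
import Cfsg.Agent.H24.W2PPOLY3
import Cfsg.Agent.H11.W2PLA10a
import Cfsg.Agent.H99.W2PP1
import Cfsg.Agent.H70.W2PLA8

set_option autoImplicit false

namespace Cfsg.Agent.H74.W2P

open Equiv MulAction

variable {Ω : Type*} [Fintype Ω] [DecidableEq Ω]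

/-! ## reduction -/

-- T1-P2
theorem two_trans_of_card_four {G : Subgroup (Perm Ω)} (hcard : Fintype.card Ω = 4)
    (hG : IsPreprimitive G Ω) : IsMultiplyPretransitive G Ω 2 := Cfsg.Agent.H25.W2P.two_trans_of_card_four hcard hG

-- T1-ODD
theorem reduce_odd {G : Subgroup (Perm Ω)} {p : ℕ} (hp : p.Prime) (hp2 : p ≠ 2)
    (hcard : Fintype.card Ω = 2 * p) (hG : IsPreprimitive G Ω)
    (hnot2 : ¬ IsMultiplyPretransitive G Ω 2) : ∃ x : Perm Ω, Hyp G p x := Cfsg.Agent.H25.W2P.reduce_odd hp hp2 hcard hG hnot2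

-- P1
theorem two_le_nval {G : Subgroup (Perm Ω)} {p : ℕ} {x : Perm Ω} (hyp : Hyp G p x) (a₀ ω : Ω)
    (hω : ω ≠ a₀) : 2 ≤ nval G a₀ ω := Cfsg.Agent.H99.W2P.two_le_nval hyp a₀ ω hω

/-! ## linear algebra, first half (`Core`) -/

-- LA1
theorem finrank_Vh {G : Subgroup (Perm Ω)} {p : ℕ} {x : Perm Ω} (hyp : Hyp G p x) (h : ZMod p) :
    Module.finrank ℂ ↥(Vh x p h) = 2 := Cfsg.Agent.H37.W2P.finrank_Vh hyp h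

-- LA2
theorem unif {G : Subgroup (Perm Ω)} {p : ℕ} {x : Perm Ω} (hyp : Hyp G p x) (a₀ : Ω)
    {h h' : ZMod p} (hh : h ≠ 0) (hh' : h' ≠ 0) :
    Module.finrank ℂ ↥(U0 G x a₀ ⊓ Vh x p h) = Module.finrank ℂ ↥(U0 G x a₀ ⊓ Vh x p h') := Cfsg.Agent.H67.W2P.unif hyp a₀ hh hh'

-- LA3
theorem b_zero_false {G : Subgroup (Perm Ω)} {p : ℕ} {x : Perm Ω} (hyp : Hyp G p x) (a₀ : Ω)
    (h0 : ∀ h : ZMod p, h ≠ 0 → U0 G x a₀ ⊓ Vh x p h = ⊥) : False := Cfsg.Agent.H73.W2P.b_zero_false hyp a₀ h0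

-- LA4
theorem b_two_false {G : Subgroup (Perm Ω)} {p : ℕ} {x : Perm Ω} (hyp : Hyp G p x) (a₀ : Ω)
    (hsc : ScalU G x a₀) (h2 : ∀ h : ZMod p, h ≠ 0 → Vh x p h ≤ U0 G x a₀) : False := Cfsg.Agent.H99.W2P.b_two_false hyp a₀ hsc h2

-- LA5
theorem scalU {G : Subgroup (Perm Ω)} {p : ℕ} {x : Perm Ω} (hyp : Hyp G p x) (a₀ : Ω) :
    ScalU G x a₀ := Cfsg.Agent.H73.W2P.scalU hyp a₀

-- LA6
theorem dimW {G : Subgroup (Perm Ω)} {p : ℕ} {x : Perm Ω} (hyp : Hyp G p x) (a₀ : Ω)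
    (hU : DimU G p x a₀) : DimW G p x a₀ := Cfsg.Agent.H11.W2P.dimW hyp a₀ hU

-- LA7
theorem scalW {G : Subgroup (Perm Ω)} {p : ℕ} {x : Perm Ω} (hyp : Hyp G p x) (a₀ b₀ : Ω)
    (hb₀ : ¬ x.SameCycle a₀ b₀) (hU : DimU G p x a₀) (hW : DimW G p x a₀) (hsc : ScalU G x a₀)
    (A : Matrix Ω Ω ℂ) (hA : CentC G A) (h : ZMod p) (hh : h ≠ 0) (f : Ω → ℂ)
    (hf : f ∈ Uperp G x a₀ ⊓ Vh x p h) : A.mulVec f = wch x a₀ b₀ p A h • f := Cfsg.Agent.H37.W2P.scalW hyp a₀ b₀ hb₀ hU hW hsc A hA h hh f hf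

/-! ## linear algebra, second half -/

-- LA8
theorem wch_transfer {G : Subgroup (Perm Ω)} {p : ℕ} {x : Perm Ω} (hyp : Hyp G p x) (a₀ b₀ : Ω) :
    Transfer x a₀ b₀ p := Cfsg.Agent.H70.W2P.wch_transfer hyp a₀ b₀

-- LA9
theorem wch_cong {G : Subgroup (Perm Ω)} {p : ℕ} {x : Perm Ω} (hyp : Hyp G p x) (a₀ b₀ : Ω)
    (hb₀ : ¬ x.SameCycle a₀ b₀) (hsc : ScalU G x a₀) : CongW G p x a₀ b₀ := Cfsg.Agent.H67.W2P.wch_cong hyp a₀ b₀ hb₀ hsc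

-- LA10a
theorem finrank_centSub {G : Subgroup (Perm Ω)} (hG : IsPretransitive G Ω) (a₀ : Ω) :
    Module.finrank ℂ ↥(centSub G) = Nat.card (orbitRel.Quotient (stabilizer G a₀) Ω) := Cfsg.Agent.H11.W2P.finrank_centSub hG a₀

-- LA10b
theorem spanInt (G : Subgroup (Perm Ω)) : SpanInt G := Cfsg.Agent.H70.W2P.spanInt G

-- LA10
theorem rank_eq {G : Subgroup (Perm Ω)} {p : ℕ} {x : Perm Ω} (hyp : Hyp G p x) (a₀ b₀ : Ω)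
    (hb₀ : ¬ x.SameCycle a₀ b₀) (core : Core G p x a₀ b₀) (htr : Transfer x a₀ b₀ p)
    (hspan : SpanInt G)
    (hfr : Module.finrank ℂ ↥(centSub G) = Nat.card (orbitRel.Quotient (stabilizer G a₀) Ω)) :
    ∃ t : ℕ, 1 ≤ t ∧ t * (Eset G x a₀ b₀ p).ncard = p - 1 ∧
      Nat.card (orbitRel.Quotient (stabilizer G a₀) Ω) = t + 2 := Cfsg.Agent.H70.W2P.rank_eq hyp a₀ b₀ hb₀ core htr hspan hfr

-- LA11a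
theorem wdata_basic {G : Subgroup (Perm Ω)} {p : ℕ} {x : Perm Ω} (hyp : Hyp G p x) (a₀ b₀ : Ω)
    (hb₀ : ¬ x.SameCycle a₀ b₀) (core : Core G p x a₀ b₀) (hspan : SpanInt G)
    (Λ : Finset (ZMod p)) (hΛ : ∀ k, k ∈ Λ ↔ k ∈ Eset G x a₀ b₀ p) :
    Inv G (Wsp G p x a₀ Λ) ∧
    (∀ h ∈ Λ, Module.finrank ℂ ↥(Wsp G p x a₀ Λ ⊓ Vh x p h) = 1) ∧
    (Wsp G p x a₀ Λ = ⨆ h ∈ Λ, Wsp G p x a₀ Λ ⊓ Vh x p h) ∧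
    (∀ A : Matrix Ω Ω ℂ, CentC G A → ∀ f ∈ Wsp G p x a₀ Λ,
      A.mulVec f = wch x a₀ b₀ p A 1 • f) := Cfsg.Agent.H25.W2P.wdata_basic hyp a₀ b₀ hb₀ core hspan Λ hΛ

-- LA11b
theorem wdata_irr {G : Subgroup (Perm Ω)} {p : ℕ} {x : Perm Ω} (hyp : Hyp G p x) (a₀ b₀ : Ω)
    (hb₀ : ¬ x.SameCycle a₀ b₀) (core : Core G p x a₀ b₀) (hspan : SpanInt G)
    (Λ : Finset (ZMod p)) (hΛ : ∀ k, k ∈ Λ ↔ k ∈ Eset G x a₀ b₀ p)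
    (hinv : Inv G (Wsp G p x a₀ Λ))
    (hscal : ∀ A : Matrix Ω Ω ℂ, CentC G A → ∀ f ∈ Wsp G p x a₀ Λ,
      A.mulVec f = wch x a₀ b₀ p A 1 • f) :
    Irr G (Wsp G p x a₀ Λ) := Cfsg.Agent.H25.W2P.wdata_irr hyp a₀ b₀ hb₀ core hspan Λ hΛ hinv hscal

-- LA11c
theorem wdata_rat {G : Subgroup (Perm Ω)} {p : ℕ} {x : Perm Ω} (hyp : Hyp G p x) (a₀ b₀ : Ω)
    (hb₀ : ¬ x.SameCycle a₀ b₀) (core : Core G p x a₀ b₀) (htr : Transfer x a₀ b₀ p)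
    (hspan : SpanInt G) (Λ : Finset (ZMod p)) (hΛ : ∀ k, k ∈ Λ ↔ k ∈ Eset G x a₀ b₀ p) :
    ∃ F ∈ Wsp G p x a₀ Λ, F ≠ 0 ∧ (∀ g ∈ G, g a₀ = a₀ → ∀ ω, F (g ω) = F ω) ∧
      ∀ ω, F ω ∈ Algebra.adjoin ℚ {zeta p} := Cfsg.Agent.H25.W2P.wdata_rat hyp a₀ b₀ hb₀ core htr hspan Λ hΛ

-- LA12
theorem div_t1 {G : Subgroup (Perm Ω)} {p : ℕ} {x : Perm Ω} (hyp : Hyp G p x) (a₀ b₀ : Ω)
    (hb₀ : ¬ x.SameCycle a₀ b₀) (hcong : CongW G p x a₀ b₀)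
    (hE : ∀ k : ZMod p, k ≠ 0 → k ∈ Eset G x a₀ b₀ p) (ω : Ω) (hω : ω ≠ a₀) :
    (p - 1) ∣ 2 * kval G x a₀ ω := Cfsg.Agent.H99.W2P.div_t1 hyp a₀ b₀ hb₀ hcong hE ω hω

-- LA13
theorem la_one {G : Subgroup (Perm Ω)} {p : ℕ} {x : Perm Ω} (hyp : Hyp G p x) (a₀ : Ω)
    (hU : DimU G p x a₀) (hsc : ScalU G x a₀) :
    ∑ ω ∈ Finset.univ.erase a₀,
      ((2 * (kval G x a₀ ω : ℚ) - nval G a₀ ω) / nval G a₀ ω) ^ 2 = 1 := Cfsg.Agent.H61.W2P.la_one hyp a₀ hU hsc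

/-! ## consequences of `WData` -/

-- WD
theorem wdata_facts {G : Subgroup (Perm Ω)} {p : ℕ} {x : Perm Ω} (hyp : Hyp G p x) {a₀ : Ω}
    {W : Submodule ℂ (Ω → ℂ)} {Λ : Finset (ZMod p)} (hW : WData G p x a₀ W Λ) :
    Module.finrank ℂ W = Λ.card ∧ (∀ h : ZMod p, h ∉ Λ → W ⊓ Vh x p h = ⊥) ∧
      ∀ f ∈ W, ∑ ω, f ω = 0 := Cfsg.Agent.H31.W2P.wdata_facts hyp hW

-- DET
theorem three_le_finrank {G : Subgroup (Perm Ω)} {p : ℕ} {x : Perm Ω} (hyp : Hyp G p x)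
    (W : Submodule ℂ (Ω → ℂ)) (hinv : Inv G W) (hirr : Irr G W)
    (hsum : ∀ f ∈ W, ∑ ω, f ω = 0) : 3 ≤ Module.finrank ℂ W := Cfsg.Agent.H31.W2P.three_le_finrank hyp W hinv hirr hsum

-- FV
theorem fv {G : Subgroup (Perm Ω)} {p : ℕ} {x : Perm Ω} (hyp : Hyp G p x) {a₀ β : Ω}
    {W : Submodule ℂ (Ω → ℂ)} {Λ : Finset (ZMod p)} (hW : WData G p x a₀ W Λ)
    (hbot : ∀ h : ZMod p, h ∉ Λ → W ⊓ Vh x p h = ⊥) (hsum : ∀ f ∈ W, ∑ ω, f ω = 0)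
    (g₀ : Perm Ω) (hg₀ : g₀ ∈ G) (hga : g₀ a₀ = a₀) (hgβ : g₀ β = β) (hβ : β ≠ a₀)
    (a : ℕ) (hconj : g₀ * x * g₀⁻¹ = x ^ a) (hord : orderOf (a : ZMod p) = Λ.card) : False := Cfsg.Agent.H56.W2P.fv hyp hW hbot hsum g₀ hg₀ hga hgβ hβ a hconj hord

-- NS
theorem ns {G : Subgroup (Perm Ω)} {p : ℕ} {x : Perm Ω} (hyp : Hyp G p x) (a₀ : Ω) :
    ∃ (g₀ : Perm Ω) (a : ℕ), g₀ ∈ G ∧ g₀ a₀ = a₀ ∧ g₀ * x * g₀⁻¹ = x ^ a ∧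
      ((Subgroup.centralizer (Subgroup.zpowers (⟨x, hyp.hxG⟩ : G) : Set G)).relIndex
          (Subgroup.normalizer (Subgroup.zpowers (⟨x, hyp.hxG⟩ : G) : Set G)) =
            orderOf (a : ZMod p) ∨
        (Subgroup.centralizer (Subgroup.zpowers (⟨x, hyp.hxG⟩ : G) : Set G)).relIndex
          (Subgroup.normalizer (Subgroup.zpowers (⟨x, hyp.hxG⟩ : G) : Set G)) =
            2 * orderOf (a : ZMod p)) ∧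
      (2 ≤ orderOf (a : ZMod p) → ∃ β : Ω, ¬ x.SameCycle a₀ β ∧ g₀ β = β) := Cfsg.Agent.H56.W2P.ns hyp a₀

/-! ## Brauer -/

-- BR1
theorem exists_irrChar (G : Subgroup (Perm Ω)) (W : Submodule ℂ (Ω → ℂ)) (hinv : Inv G W)
    (hirr : Irr G W) :
    ∃ χ : Cfsg.IrrCharacter G, ∀ (g : G) (T : W →ₗ[ℂ] W),
      (∀ f : W, ((T f : W) : Ω → ℂ) = fun ω => (f : Ω → ℂ) ((g⁻¹ : G) • ω)) →
        (χ : G → ℂ) g = LinearMap.trace ℂ W T := Cfsg.Agent.H20.W2P.exists_irrChar G W hinv hirr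

-- BR2
theorem relIndex_dvd_card {G : Subgroup (Perm Ω)} {p : ℕ} {x : Perm Ω} (hyp : Hyp G p x) {a₀ : Ω}
    {W : Submodule ℂ (Ω → ℂ)} {Λ : Finset (ZMod p)} (hW : WData G p x a₀ W Λ)
    (hbot : ∀ h : ZMod p, h ∉ Λ → W ⊓ Vh x p h = ⊥) :
    (Subgroup.centralizer (Subgroup.zpowers (⟨x, hyp.hxG⟩ : G) : Set G)).relIndex
      (Subgroup.normalizer (Subgroup.zpowers (⟨x, hyp.hxG⟩ : G) : Set G)) ∣ Λ.card := Cfsg.Agent.H20.W2P.relIndex_dvd_card hyp hW hbot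

-- BR
theorem brauer {G : Subgroup (Perm Ω)} {p : ℕ} {x : Perm Ω} (hyp : Hyp G p x) {a₀ : Ω}
    {W : Submodule ℂ (Ω → ℂ)} {Λ : Finset (ZMod p)} (hW : WData G p x a₀ W Λ)
    (hfr : Module.finrank ℂ W = Λ.card)
    (hχ : ∃ χ : Cfsg.IrrCharacter G, ∀ (g : G) (T : W →ₗ[ℂ] W),
      (∀ f : W, ((T f : W) : Ω → ℂ) = fun ω => (f : Ω → ℂ) ((g⁻¹ : G) • ω)) →
        (χ : G → ℂ) g = LinearMap.trace ℂ W T)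
    (hdvd : (Subgroup.centralizer (Subgroup.zpowers (⟨x, hyp.hxG⟩ : G) : Set G)).relIndex
      (Subgroup.normalizer (Subgroup.zpowers (⟨x, hyp.hxG⟩ : G) : Set G)) ∣ Λ.card)
    (hlt : Λ.card < p - 1) :
    Λ.card = (Subgroup.centralizer (Subgroup.zpowers (⟨x, hyp.hxG⟩ : G) : Set G)).relIndex
      (Subgroup.normalizer (Subgroup.zpowers (⟨x, hyp.hxG⟩ : G) : Set G)) := Cfsg.Agent.H32.W2P.brauer hyp hW hfr hχ hdvd hlt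

/-! ## the modular polynomial argument -/

-- RED
theorem red {p : ℕ} (hp : p.Prime) {ι : Type*} [Fintype ι] (v : ι → ℂ)
    (hv : ∀ i, v i ∈ Algebra.adjoin ℚ {zeta p}) (hne : v ≠ 0) :
    ∃ c : ι → ZMod p, c ≠ 0 ∧ ∀ q : ι → Polynomial ℤ,
      ∑ i, Polynomial.aeval (zeta p) (q i) * v i = 0 →
        ∑ i, (((q i).eval 1 : ℤ) : ZMod p) * c i = 0 := Cfsg.Agent.H51.W2P.red hp v hv hne

-- POLY2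
theorem poly2 {G : Subgroup (Perm Ω)} {p : ℕ} {x : Perm Ω} (hyp : Hyp G p x) {a₀ : Ω}
    {W : Submodule ℂ (Ω → ℂ)} {Λ : Finset (ZMod p)} (hW : WData G p x a₀ W Λ)
    (hsum : ∀ f ∈ W, ∑ ω, f ω = 0)
    (hred : ∀ v : Ω → ℂ, (∀ i, v i ∈ Algebra.adjoin ℚ {zeta p}) → v ≠ 0 →
      ∃ c : Ω → ZMod p, c ≠ 0 ∧ ∀ q : Ω → Polynomial ℤ,
        ∑ i, Polynomial.aeval (zeta p) (q i) * v i = 0 →
          ∑ i, (((q i).eval 1 : ℤ) : ZMod p) * c i = 0) :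
    ∃ Fb : Ω → ZMod p, Fb a₀ = 0 ∧ (∃ ω, Fb ω ≠ 0) ∧
      (∀ g ∈ G, g a₀ = a₀ → ∀ ω, Fb (g ω) = Fb ω) ∧
      ∀ ω, ∑ i ∈ Finset.range (Λ.card + 2),
        ((-1 : ZMod p) ^ i * ((Λ.card + 1).choose i : ZMod p)) * Fb ((x ^ i) ω) = 0 := Cfsg.Agent.H51.W2P.poly2 hyp hW hsum hred

-- POLY3
theorem poly3 {p : ℕ} (hp : p.Prime) (e₀ : ℕ) (he₀ : 1 ≤ e₀) (hlt : 2 * e₀ + 1 < p)
    (f : ℕ → ZMod p)
    (hdiff : ∀ n, ∑ i ∈ Finset.range (2 * e₀ + 2),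
      ((-1 : ZMod p) ^ i * ((2 * e₀ + 1).choose i : ZMod p)) * f (n + i) = 0)
    (a : ℕ) (ha : orderOf (a : ZMod p) = e₀) (hinv : ∀ n, f (a * n) = f n) :
    ∃ c₀ c₁ c₂ : ZMod p, ∀ n : ℕ,
      f n = c₀ + c₁ * (n : ZMod p) ^ e₀ + c₂ * (n : ZMod p) ^ (2 * e₀) := Cfsg.Agent.H24.W2P.poly3 hp e₀ he₀ hlt f hdiff a ha hinv

/-! ## the arithmetic -/

-- CYC
theorem conic_count {p : ℕ} [Fact p.Prime] (t : ℕ) (hpt : p = 4 * t + 1) (s : ZMod p)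
    (hs : s ≠ 0) : (conicSet p s).card ≤ t := Cfsg.Agent.H24.W2P.conic_count t hpt s hs

-- ARA1
theorem ara1 {p : ℕ} [Fact p.Prime] {Q : Type*} [Fintype Q] (t e₀ : ℕ) (ht : 2 ≤ t)
    (he₀ : 2 ≤ e₀) (hpe : p - 1 = 2 * t * e₀) (hQ : Fintype.card Q = t + 2)
    (c1 c2 : ZMod p → Q) (q₀ : Q) (h10 : ∀ z, c1 z = q₀ ↔ z = 0) (h20 : ∀ z, c2 z ≠ q₀)
    (hsurj : ∀ q, ∃ z, c1 z = q ∨ c2 z = q)
    (a : ZMod p) (ha : orderOf a = e₀) (h1a : ∀ z, c1 (a * z) = c1 z)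
    (h2a : ∀ z, c2 (a * z) = c2 z)
    (hn : ∀ q, q ≠ q₀ → 2 ≤ cnt c1 q + cnt c2 q)
    (hone : open Classical in ∑ q ∈ Finset.univ.erase q₀,
      ((cnt c1 q : ℚ) - cnt c2 q) ^ 2 / ((cnt c1 q : ℚ) + cnt c2 q) = 1)
    (val : Q → ZMod p) (hval : ∃ q, val q ≠ 0) (B C A' B' C' : ZMod p)
    (hv1 : ∀ z, val (c1 z) = B * z ^ e₀ + C * z ^ (2 * e₀))
    (hv2 : ∀ z, val (c2 z) = A' + B' * z ^ e₀ + C' * z ^ (2 * e₀)) :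
    e₀ = 2 ∧ ∃ q₁ : Q, q₁ ≠ q₀ ∧ q₁ ≠ c2 0 ∧ cnt c1 (c2 0) = 2 ∧ cnt c2 (c2 0) = 1 ∧
      cnt c1 q₁ = 2 ∧ cnt c2 q₁ = 4 ∧
      ∀ q, q ≠ q₀ → q ≠ c2 0 → q ≠ q₁ → cnt c1 q = 4 ∧ cnt c2 q = 4 := Cfsg.Agent.H64.W2P.ara1 t e₀ ht he₀ hpe hQ c1 c2 q₀ h10 h20 hsurj a ha h1a h2a hn hone val hval B C A' B' C' hv1 hv2

-- ARA2
theorem ara2 {p : ℕ} [Fact p.Prime] {Q : Type*} [Fintype Q] (t : ℕ) (ht : 2 ≤ t)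
    (hpe : p - 1 = 4 * t) (hQ : Fintype.card Q = t + 2)
    (hcyc : ∀ s : ZMod p, s ≠ 0 → (conicSet p s).card ≤ t)
    (c1 c2 : ZMod p → Q) (q₀ : Q) (h10 : ∀ z, c1 z = q₀ ↔ z = 0) (h20 : ∀ z, c2 z ≠ q₀)
    (h1a : ∀ z, c1 (-z) = c1 z) (h2a : ∀ z, c2 (-z) = c2 z)
    (q₁ : Q) (hq₁ : q₁ ≠ q₀) (hq₁β : q₁ ≠ c2 0) (hkβ : cnt c1 (c2 0) = 2)
    (hlβ : cnt c2 (c2 0) = 1) (hk₁ : cnt c1 q₁ = 2) (hl₁ : cnt c2 q₁ = 4)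
    (hrest : ∀ q, q ≠ q₀ → q ≠ c2 0 → q ≠ q₁ → cnt c1 q = 4 ∧ cnt c2 q = 4)
    (val : Q → ZMod p) (hval : ∃ q, val q ≠ 0) (B C A' B' C' : ZMod p)
    (hv1 : ∀ z, val (c1 z) = B * z ^ 2 + C * z ^ 4)
    (hv2 : ∀ z, val (c2 z) = A' + B' * z ^ 2 + C' * z ^ 4) : False := Cfsg.Agent.H64.W2P.ara2 t ht hpe hQ hcyc c1 c2 q₀ h10 h20 h1a h2a q₁ hq₁ hq₁β hkβ hlβ hk₁ hl₁ hrest val hval B C A' B' C' hv1 hv2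

-- AR (bridge from the permutation group to the abstract statement `ARA`)
theorem ar {G : Subgroup (Perm Ω)} {p : ℕ} [Fact p.Prime] {x : Perm Ω} (hyp : Hyp G p x)
    (a₀ β : Ω) (hβ : ¬ x.SameCycle a₀ β) (e₀ : ℕ) (he₀ : 2 ≤ e₀)
    [Fintype (orbitRel.Quotient (stabilizer G a₀) Ω)]
    (hara : ARA p (orbitRel.Quotient (stabilizer G a₀) Ω) e₀)
    (hone : ∑ ω ∈ Finset.univ.erase a₀,
      ((2 * (kval G x a₀ ω : ℚ) - nval G a₀ ω) / nval G a₀ ω) ^ 2 = 1)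
    (hn : ∀ ω, ω ≠ a₀ → 2 ≤ nval G a₀ ω)
    (g₀ : Perm Ω) (hg₀ : g₀ ∈ G) (hga : g₀ a₀ = a₀) (hgβ : g₀ β = β) (a : ℕ)
    (hconj : g₀ * x * g₀⁻¹ = x ^ a) (hord : orderOf (a : ZMod p) = e₀)
    (Fb : Ω → ZMod p) (hF0 : Fb a₀ = 0) (hFne : ∃ ω, Fb ω ≠ 0)
    (hFinv : ∀ g ∈ G, g a₀ = a₀ → ∀ ω, Fb (g ω) = Fb ω)
    (B C A' B' C' : ZMod p)
    (h1 : ∀ n : ℕ, Fb ((x ^ n) a₀) = B * (n : ZMod p) ^ e₀ + C * (n : ZMod p) ^ (2 * e₀))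
    (h2 : ∀ n : ℕ, Fb ((x ^ n) β) = A' + B' * (n : ZMod p) ^ e₀ + C' * (n : ZMod p) ^ (2 * e₀)) :
    False := Cfsg.Agent.H61.W2P.ar hyp a₀ β hβ e₀ he₀ hara hone hn g₀ hg₀ hga hgβ a hconj hord Fb hF0 hFne hFinv B C A' B' C' h1 h2

-- R1
theorem r1 {G : Subgroup (Perm Ω)} {p : ℕ} {x : Perm Ω} (hyp : Hyp G p x) (a₀ : Ω)
    (hrank : Nat.card (orbitRel.Quotient (stabilizer G a₀) Ω) = 3)
    (hdiv : ∀ ω, ω ≠ a₀ → (p - 1) ∣ 2 * kval G x a₀ ω)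
    (hone : ∑ ω ∈ Finset.univ.erase a₀,
      ((2 * (kval G x a₀ ω : ℚ) - nval G a₀ ω) / nval G a₀ ω) ^ 2 = 1)
    (hn : ∀ ω, ω ≠ a₀ → 2 ≤ nval G a₀ ω) : Concl G p a₀ := Cfsg.Agent.H24.W2P.r1 hyp a₀ hrank hdiv hone hn

end Cfsg.Agent.H74.W2P
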