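import Mathlib
import Cfsg.Agent.H74.W2PPieces

set_option autoImplicit false

/-!
# Wielandt's theorem on primitive groups of degree `2p`: assembly of the pieces (helper74)
-/

namespace Cfsg.Agent.H74.W2P

open Equiv MulAction

variable {Ω : Type*} [Fintype Ω] [DecidableEq Ω]

theorem exists_b0 {G : Subgroup (Perm Ω)} {p : ℕ} {x : Perm Ω} (hyp : Hyp G p x) (a₀ : Ω) :
    ∃ b₀ : Ω, ¬ x.SameCycle a₀ b₀ := by
  by_contra hcon
  push Not at hcon
  have hsurj : Function.Surjective (fun i : Fin p => (x ^ (i : ℕ)) a₀) := by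
    intro ω
    obtain ⟨i, hi⟩ := (hcon ω).exists_nat_pow_eq
    refine ⟨⟨i % p, Nat.mod_lt _ hyp.hp.pos⟩, ?_⟩
    simp only
    rw [← hi]
    conv_lhs => rw [← hyp.hxord, pow_mod_orderOf]
  have h1 := Fintype.card_le_of_surjective _ hsurj
  simp only [hyp.hcard, Fintype.card_fin] at h1
  have := hyp.hp.pos
  omega

theorem core_of {G : Subgroup (Perm Ω)} {p : ℕ} {x : Perm Ω} (hyp : Hyp G p x) (a₀ b₀ : Ω)
    (hb₀ : ¬ x.SameCycle a₀ b₀) : Core G p x a₀ b₀ := by
  have : Fact p.Prime := ⟨hyp.hp⟩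
  have hsc := scalU hyp a₀
  have h1 : (1 : ZMod p) ≠ 0 := one_ne_zero
  have hdimU : DimU G p x a₀ := by
    intro h hh
    have hle : Module.finrank ℂ ↥(U0 G x a₀ ⊓ Vh x p h) ≤ 2 := by
      rw [← finrank_Vh hyp h]
      exact Submodule.finrank_mono inf_le_right
    have hcases : Module.finrank ℂ ↥(U0 G x a₀ ⊓ Vh x p h) = 0 ∨
        Module.finrank ℂ ↥(U0 G x a₀ ⊓ Vh x p h) = 1 ∨
        Module.finrank ℂ ↥(U0 G x a₀ ⊓ Vh x p h) = 2 := by omega
    rcases hcases with h0 | h1' | h2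
    · exfalso
      apply b_zero_false hyp a₀
      intro h' hh'
      have := unif hyp a₀ hh' hh
      rw [h0] at this
      exact Submodule.finrank_eq_zero.mp this
    · exact h1'
    · exfalso
      apply b_two_false hyp a₀ hsc
      intro h' hh'
      have h3 := unif hyp a₀ hh' hh
      rw [h2, ← finrank_Vh hyp h'] at h3
      have h4 : U0 G x a₀ ⊓ Vh x p h' = Vh x p h' :=
        Submodule.eq_of_le_of_finrank_eq inf_le_right h3
      rw [← h4]
      exact inf_le_left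
  have hdimW := dimW hyp a₀ hdimU
  exact ⟨hdimU, hdimW, hsc, fun A hA h hh f hf => scalW hyp a₀ b₀ hb₀ hdimU hdimW hsc A hA h hh f hf⟩

theorem la_main {G : Subgroup (Perm Ω)} {p : ℕ} {x : Perm Ω} (hyp : Hyp G p x) (a₀ : Ω) :
    ∃ t : ℕ, 1 ≤ t ∧ Nat.card (orbitRel.Quotient (stabilizer G a₀) Ω) = t + 2 ∧
      (t = 1 → ∀ ω, ω ≠ a₀ → (p - 1) ∣ 2 * kval G x a₀ ω) ∧
      (2 ≤ t → ∃ (W : Submodule ℂ (Ω → ℂ)) (Λ : Finset (ZMod p)),
        WData G p x a₀ W Λ ∧ t * Λ.card = p - 1) := by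
  have : Fact p.Prime := ⟨hyp.hp⟩
  obtain ⟨b₀, hb₀⟩ := exists_b0 hyp a₀
  have core := core_of hyp a₀ b₀ hb₀
  have htr := wch_transfer hyp a₀ b₀
  have hspan := spanInt G
  have hcong := wch_cong hyp a₀ b₀ hb₀ core.scalU
  have hpt : IsPretransitive G Ω := hyp.hprim.toIsPretransitive
  obtain ⟨t, ht1, hmul, hrank⟩ := rank_eq hyp a₀ b₀ hb₀ core htr hspan (finrank_centSub hpt a₀)
  refine ⟨t, ht1, hrank, ?_, ?_⟩
  · intro ht ω hω
    subst ht
    rw [one_mul] at hmul
    have hsub : Eset G x a₀ b₀ p ⊆ {k : ZMod p | k ≠ 0} := fun k hk => hk.1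
    have hcard : ({k : ZMod p | k ≠ 0} : Set (ZMod p)).ncard = p - 1 := by
      have : ({k : ZMod p | k ≠ 0} : Set (ZMod p)) = ({0} : Set (ZMod p))ᶜ := by
        ext k; simp
      rw [this, Set.ncard_compl, Set.ncard_singleton, Nat.card_eq_fintype_card, ZMod.card]
    have heq : Eset G x a₀ b₀ p = {k : ZMod p | k ≠ 0} :=
      Set.eq_of_subset_of_ncard_le hsub (by rw [hcard, hmul]) (Set.toFinite _)
    exact div_t1 hyp a₀ b₀ hb₀ hcong (fun k hk => by rw [heq]; exact hk) ω hω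
  · intro ht
    have hfin : (Eset G x a₀ b₀ p).Finite := Set.toFinite _
    let Λ : Finset (ZMod p) := hfin.toFinset
    have hΛ : ∀ k, k ∈ Λ ↔ k ∈ Eset G x a₀ b₀ p := fun k => Set.Finite.mem_toFinset hfin
    have hcardΛ : Λ.card = (Eset G x a₀ b₀ p).ncard := (Set.ncard_eq_toFinset_card _ hfin).symm
    obtain ⟨hinv, heig, hsup, hscal⟩ := wdata_basic hyp a₀ b₀ hb₀ core hspan Λ hΛ
    have hirr := wdata_irr hyp a₀ b₀ hb₀ core hspan Λ hΛ hinv hscal
    have hrat := wdata_rat hyp a₀ b₀ hb₀ core htr hspan Λ hΛ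
    refine ⟨Wsp G p x a₀ Λ, Λ, ⟨hinv, hirr, ?_, heig, hsup, ?_, hrat⟩, by rw [hcardΛ, hmul]⟩
    · intro h0
      exact ((hΛ 0).mp h0).1 rfl
    · intro A hA
      obtain ⟨u, hu, hwu⟩ := hcong A hA 1
      refine ⟨u, hu, fun f hf => ?_⟩
      have hAC : CentC G (A.map (Int.cast : ℤ → ℂ)) := by
        intro g hg i j
        simp only [Matrix.map_apply, hA g hg i j]
      rw [hscal _ hAC f hf, hwu]

theorem ara_all {p : ℕ} [Fact p.Prime] {Q : Type*} [Fintype Q] (t e₀ : ℕ) (ht : 2 ≤ t)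
    (he₀ : 2 ≤ e₀) (hpe : p - 1 = 2 * t * e₀) (hQ : Fintype.card Q = t + 2) : ARA p Q e₀ := by
  intro c1 c2 q₀ h10 h20 hsurj a ha h1a h2a hn hone val hval B C A' B' C' hv1 hv2
  obtain ⟨he2, q₁, hq₁, hq₁β, hkβ, hlβ, hk₁, hl₁, hrest⟩ :=
    ara1 t e₀ ht he₀ hpe hQ c1 c2 q₀ h10 h20 hsurj a ha h1a h2a hn hone val hval B C A' B' C'
      hv1 hv2
  subst he2
  have hpp : p.Prime := Fact.out
  have ha1 : a = -1 := by
    have h2 : a ^ 2 = 1 := by rw [← ha]; exact pow_orderOf_eq_one a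
    have hne : a ≠ 1 := by
      intro h
      rw [h, orderOf_one] at ha
      omega
    have h3 : (a - 1) * (a + 1) = 0 := by ring_nf; rw [h2]; ring
    rcases mul_eq_zero.mp h3 with h | h
    · exact absurd (sub_eq_zero.mp h) hne
    · exact eq_neg_of_add_eq_zero_left h
  have hp4 : p = 4 * t + 1 := by
    have := hpp.pos
    omega
  refine ara2 t ht (by omega) hQ (fun s hs => conic_count t hp4 s hs) c1 c2 q₀ h10 h20 ?_ ?_
    q₁ hq₁ hq₁β hkβ hlβ hk₁ hl₁ hrest val hval B C A' B' C' ?_ ?_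
  · intro z
    have := h1a z
    rwa [ha1, neg_one_mul] at this
  · intro z
    have := h2a z
    rwa [ha1, neg_one_mul] at this
  · intro z
    have := hv1 z
    norm_num at this
    exact this
  · intro z
    have := hv2 z
    norm_num at this
    exact this

theorem core_thm {G : Subgroup (Perm Ω)} {p : ℕ} {x : Perm Ω} (hyp : Hyp G p x) (a₀ : Ω) :
    Concl G p a₀ := by
  have : Fact p.Prime := ⟨hyp.hp⟩
  obtain ⟨t, ht1, hrank, h1, h2⟩ := la_main hyp a₀
  obtain ⟨b₀, hb₀⟩ := exists_b0 hyp a₀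
  have core := core_of hyp a₀ b₀ hb₀
  have hone := la_one hyp a₀ core.dimU core.scalU
  have hn := fun ω hω => two_le_nval hyp a₀ ω hω
  rcases Nat.lt_or_ge t 2 with ht | ht
  · have ht' : t = 1 := by omega
    exact r1 hyp a₀ (by rw [hrank, ht']) (h1 ht') hone hn
  · exfalso
    obtain ⟨W, Λ, hW, hcard⟩ := h2 ht
    obtain ⟨hfr, hbot, hsum⟩ := wdata_facts hyp hW
    have h3 := three_le_finrank hyp W hW.inv hW.irr hsum
    rw [hfr] at h3
    have hp1 : 2 ≤ p := hyp.hp.two_le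
    have hlt : Λ.card < p - 1 := by nlinarith
    have hbr := brauer hyp hW hfr (exists_irrChar G W hW.inv hW.irr)
      (relIndex_dvd_card hyp hW hbot) hlt
    obtain ⟨g₀, a, hg₀, hga, hconj, hrel, hβ⟩ := ns hyp a₀
    have hxp : x ^ p = 1 := by rw [← hyp.hxord]; exact pow_orderOf_eq_one x
    have hginv : g₀⁻¹ a₀ = a₀ := by
      rw [Perm.inv_eq_iff_eq]; exact hga.symm
    have hpow : ∀ n : ℕ, x ^ (a * n) = g₀ * x ^ n * g₀⁻¹ := by
      intro n
      rw [pow_mul, ← hconj, conj_pow]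
    rcases hrel with hrel | hrel
    · rw [← hbr] at hrel
      have he : 2 ≤ orderOf (a : ZMod p) := by omega
      obtain ⟨β, hβ1, hβ2⟩ := hβ he
      have hβne : β ≠ a₀ := by
        rintro rfl
        exact hβ1 (Perm.SameCycle.refl _ _)
      exact fv hyp hW hbot hsum g₀ hg₀ hga hβ2 hβne a hconj hrel.symm
    · rw [← hbr] at hrel
      have he : 2 ≤ orderOf (a : ZMod p) := by omega
      obtain ⟨β, hβ1, hβ2⟩ := hβ he
      have hginvβ : g₀⁻¹ β = β := by
        rw [Perm.inv_eq_iff_eq]; exact hβ2.symm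
      obtain ⟨Fb, hF0, hFne, hFinv, hFd⟩ := poly2 hyp hW hsum (fun v hv hne => red hyp.hp v hv hne)
      have hlt' : 2 * orderOf (a : ZMod p) + 1 < p := by omega
      have hdiff : ∀ (ω₀ : Ω) (n : ℕ), ∑ i ∈ Finset.range (2 * orderOf (a : ZMod p) + 2),
          ((-1 : ZMod p) ^ i * ((2 * orderOf (a : ZMod p) + 1).choose i : ZMod p)) *
            Fb ((x ^ (n + i)) ω₀) = 0 := by
        intro ω₀ n
        have := hFd ((x ^ n) ω₀)
        rw [hrel] at this
        rw [← this]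
        refine Finset.sum_congr rfl fun i _ => ?_
        rw [← Perm.mul_apply, ← pow_add, add_comm i n]
      have hinv1 : ∀ n : ℕ, Fb ((x ^ (a * n)) a₀) = Fb ((x ^ n) a₀) := by
        intro n
        rw [hpow n, Perm.mul_apply, Perm.mul_apply, hginv]
        exact hFinv g₀ hg₀ hga _
      have hinv2 : ∀ n : ℕ, Fb ((x ^ (a * n)) β) = Fb ((x ^ n) β) := by
        intro n
        rw [hpow n, Perm.mul_apply, Perm.mul_apply, hginvβ]
        exact hFinv g₀ hg₀ hga _
      obtain ⟨c₀, c₁, c₂, hc⟩ := poly3 hyp.hp (orderOf (a : ZMod p)) (by omega) hlt'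
        (fun n => Fb ((x ^ n) a₀)) (hdiff a₀) a rfl hinv1
      obtain ⟨d₀, d₁, d₂, hd⟩ := poly3 hyp.hp (orderOf (a : ZMod p)) (by omega) hlt'
        (fun n => Fb ((x ^ n) β)) (hdiff β) a rfl hinv2
      have hc0 : c₀ = 0 := by
        have h0 := hc 0
        have he0 : orderOf (a : ZMod p) ≠ 0 := by omega
        simp only [pow_zero, Perm.one_apply, hF0, Nat.cast_zero, ne_eq, he0, not_false_eq_true,
          zero_pow, mul_zero, add_zero, mul_eq_zero, OfNat.ofNat_ne_zero, false_or] at h0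
        exact h0.symm
      haveI : Fintype (orbitRel.Quotient (stabilizer G a₀) Ω) := Fintype.ofFinite _
      have hQ : Fintype.card (orbitRel.Quotient (stabilizer G a₀) Ω) = t + 2 := by
        rw [← Nat.card_eq_fintype_card, hrank]
      have hpe : p - 1 = 2 * t * orderOf (a : ZMod p) := by
        rw [← hcard, hrel]; ring
      have hara := ara_all (p := p) (Q := orbitRel.Quotient (stabilizer G a₀) Ω) t
        (orderOf (a : ZMod p)) ht he hpe hQ
      refine ar hyp a₀ β hβ1 (orderOf (a : ZMod p)) he hara hone hn g₀ hg₀ hga hβ2 a hconj rfl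
        Fb hF0 hFne hFinv c₁ c₂ d₀ d₁ d₂ ?_ hd
      intro n
      have := hc n
      simp only [hc0, zero_add] at this
      exact this

theorem main {α : Type*} [Fintype α] [DecidableEq α] {p : ℕ} (hp : p.Prime)
    (hα : Fintype.card α = 2 * p) (G : Subgroup (Equiv.Perm α))
    (hG : MulAction.IsPreprimitive G α) (a₀ : α) :
    MulAction.IsMultiplyPretransitive G α 2 ∨ Concl G p a₀ := by
  by_cases h2 : MulAction.IsMultiplyPretransitive G α 2
  · exact Or.inl h2
  · right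
    by_cases hp2 : p = 2
    · subst hp2
      exact absurd (two_trans_of_card_four (by rw [hα]) hG) h2
    · obtain ⟨x, hyp⟩ := reduce_odd hp hp2 hα hG h2
      exact core_thm hyp a₀

end Cfsg.Agent.H74.W2P
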